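/-
KS12 (Kurzweil-Stellmacher 12.1), part A: subgroups `K = O²(K)` with `|K : O₂(K)| = 3` and their module `W_K`.
-/
import Cfsg.Agent.Even.Bau
import Cfsg.Agent.Even.NGrp.GeoMod
import Cfsg.Agent.Grp.PGroupBasic
import Cfsg.Prelude.Def_JComponents

set_option autoImplicit false

open Cfsg Subgroup CL.Even CL.Loc
open CL.Grp (IsSylowIn SubnIn)
open scoped commutatorElement

namespace CL.KS12

variable {G : Type*} [Group G]

theorem relIndex_dvd_two {H K : Subgroup G} (h : ∀ a ∈ K, ∀ b ∈ K, a ∉ H → b ∉ H → a * b ∈ H) :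
    H.relIndex K ∣ 2 := by
  rw [relIndex_dvd_two_iff]
  by_cases hk : K ≤ H
  · exact ⟨1, one_mem _, fun b hb => Or.inr (hk hb)⟩
  · obtain ⟨a, ha, ha'⟩ := SetLike.not_le_iff_exists.1 hk
    exact ⟨a, ha, fun b hb => (em (b ∈ H)).elim Or.inr fun h' => Or.inl (h b hb a ha h' ha')⟩

theorem card_le_two_mul {H K : Subgroup G} (h : ∀ a ∈ K, ∀ b ∈ K, a ∉ H → b ∉ H → a * b ∈ H) :
    Nat.card K ≤ 2 * Nat.card (K ⊓ H : Subgroup G) := by
  rw [← CL.Grp.card_inf_mul_relIndex H K, inf_comm, mul_comm]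
  exact Nat.mul_le_mul_right _ (Nat.le_of_dvd two_pos (relIndex_dvd_two h))

theorem relIndex_eq_two {H K : Subgroup G} (h : ∀ a ∈ K, ∀ b ∈ K, a ∉ H → b ∉ H → a * b ∈ H) (hn : ¬ K ≤ H) :
    H.relIndex K = 2 :=
  ((Nat.dvd_prime Nat.prime_two).1 (relIndex_dvd_two h)).resolve_left fun e => hn (relIndex_eq_one.1 e)

theorem mul_mem_two {A B : Subgroup G} (h : A.relIndex B = 2) {x y : G} (hx : x ∈ B) (hy : y ∈ B) :
    x * y ∈ A ↔ (x ∈ A ↔ y ∈ A) :=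
  mul_mem_iff_of_index_two (H := A.subgroupOf B) h (a := ⟨x, hx⟩) (b := ⟨y, hy⟩)

theorem eq_of_card_le_two [Finite G] {Y : Subgroup G} (h : Nat.card Y ≤ 2) {a b : G} (ha : a ∈ Y) (hb : b ∈ Y)
    (ha1 : a ≠ 1) (hb1 : b ≠ 1) : a = b := by
  by_contra hne
  have : 3 ≤ Nat.card Y := by
    classical
    have h1 : ({1, a, b} : Finset G).card = 3 := Finset.card_eq_three.2 ⟨1, a, b, ha1.symm, hb1.symm, hne, rfl⟩
    rw [← h1, ← Set.ncard_coe_finset, ← SetLike.coe_sort_coe, Nat.card_coe_set_eq]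
    refine Set.ncard_le_ncard (fun x hx => ?_) (Set.toFinite _)
    simp only [Finset.coe_insert, Finset.coe_singleton, Set.mem_insert_iff, Set.mem_singleton_iff] at hx
    rcases hx with rfl | rfl | rfl
    exacts [one_mem _, ha, hb]
  omega

theorem mem_cz {a x : G} : x ∈ 𝒞(zpowers a) ↔ a * x = x * a := by
  refine ⟨fun h => h a (mem_zpowers a), fun h y hy => ?_⟩
  obtain ⟨n, rfl⟩ := mem_zpowers_iff.1 hy
  exact (Commute.zpow_left h n)

theorem cz_comm {X : Subgroup G} {a : G} : X ≤ 𝒞(zpowers a) ↔ a ∈ 𝒞(X) := by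
  rw [le_centralizer_iff, zpowers_le]

/-- the elements normalising `U` whose commutator with `k` lies in `U` -/
def cm1 (k : G) (U : Subgroup G) : Subgroup G where
  carrier := {x | x ∈ 𝒩(U) ∧ ⁅k, x⁆ ∈ U}
  one_mem' := ⟨one_mem _, by simp⟩
  mul_mem' := by
    rintro x y ⟨hx, hx'⟩ ⟨hy, hy'⟩
    refine ⟨mul_mem hx hy, ?_⟩
    have : ⁅k, x * y⁆ = ⁅k, x⁆ * (x * ⁅k, y⁆ * x⁻¹) := by
      simp only [commutatorElement_def]; group
    rw [this]
    exact mul_mem hx' (conj_mem hx hy')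
  inv_mem' := by
    rintro x ⟨hx, hx'⟩
    refine ⟨inv_mem hx, ?_⟩
    have : ⁅k, x⁻¹⁆ = x⁻¹ * ⁅k, x⁆⁻¹ * x := by
      simp only [commutatorElement_def]; group
    rw [this]
    exact conj_mem' hx (inv_mem hx')

theorem comm_swap {U : Subgroup G} {a b : G} (h : ⁅a, b⁆ ∈ U) : ⁅b, a⁆ ∈ U := by
  rw [← commutatorElement_inv]; exact inv_mem h

theorem comm_mem_norm {U : Subgroup G} {a u : G} (ha : a ∈ 𝒩(U)) (hu : u ∈ U) : ⁅a, u⁆ ∈ U :=
  mul_mem (conj_mem ha hu) (inv_mem hu)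

/-- `K = O²(K)` and `|K : O₂(K)| = 3` -/
structure K3 (K : Subgroup G) : Prop where
  res : pResidualOf 2 K = K
  idx : (pCoreOf 2 K).relIndex K = 3

/-- the centraliser of `K / O₂(K)` -/
abbrev rK (K : Subgroup G) : Subgroup G := cmod K (pCoreOf 2 K)

theorem wOf_def (K : Subgroup G) : wOf K = ⁅𝛀[2] (pCoreOf 2 K), K⁆ := rfl

theorem norm_le_norm_w (K : Subgroup G) : 𝒩(K) ≤ 𝒩(wOf K) :=
  le_norm_commutator (le_norm_ozc (le_norm_core le_rfl)) le_rfl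

theorem w_le_om (K : Subgroup G) : wOf K ≤ 𝛀[2] (pCoreOf 2 K) :=
  commutator_le_of_le_norm (le_norm_ozc (self_le_norm_core K))

theorem w_le_core (K : Subgroup G) : wOf K ≤ pCoreOf 2 K := (w_le_om K).trans (ozc_le _)

theorem w_le (K : Subgroup G) : wOf K ≤ K := (w_le_core K).trans (core_le K)

theorem w_elem (K : Subgroup G) : IsElementaryAbelian 2 (wOf K) := elem_of_le (ozc_elem _) (w_le_om K)

theorem core_le_cent_w (K : Subgroup G) : pCoreOf 2 K ≤ 𝒞(wOf K) := (le_cent_ozc _).trans (cent_mono (w_le_om K))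

theorem cj_w (g : G) (K : Subgroup G) : cj g (wOf K) = wOf (cj g K) := by
  rw [wOf_def, wOf_def, cj_commutator, cj_ozc, cj_core]

theorem norm_le_norm_rK (K : Subgroup G) : 𝒩(K) ≤ 𝒩(rK K) := le_norm_cmod le_rfl (le_norm_core le_rfl)

namespace K3

variable {K : Subgroup G} (h : K3 K)
include h

theorem not_le : ¬ K ≤ pCoreOf 2 K := fun e => by
  have := h.idx
  rw [relIndex_eq_one.2 e] at this
  omega

theorem not_isP : ¬ IsPGroup 2 K := fun e => h.not_le (core_eq_self e).ge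

theorem sup_eq {X : Subgroup G} (hX : X ≤ K) (hn : ¬ X ≤ pCoreOf 2 K) : pCoreOf 2 K ⊔ X = K :=
  (CL.Grp.eq_or_eq_of_relIndex_prime le_sup_left (sup_le (core_le K) hX) (h.idx ▸ Nat.prime_three)).resolve_left
    fun e => hn (le_sup_right.trans e.le)

theorem sup_zp {x : G} (hx : x ∈ K) (hn : x ∉ pCoreOf 2 K) : pCoreOf 2 K ⊔ zpowers x = K :=
  h.sup_eq (zpowers_le.2 hx) (by rwa [zpowers_le])

theorem conj (g : G) : K3 (cj g K) := ⟨by rw [← cj_res, h.res], by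
  rw [← cj_core, ← h.idx]; exact relIndex_map_map_of_injective _ _ (MulAut.conj g).injective⟩

theorem exists_x : ∃ x ∈ K, x ∉ pCoreOf 2 K ∧ (orderOf x).Coprime 2 := by
  by_contra hn
  push Not at hn
  exact h.not_le (h.res.ge.trans (res_le_of fun x hx ho => by_contra fun e => hn x hx e ho))

theorem cases {x k : G} (hx : x ∈ K) (hn : x ∉ pCoreOf 2 K) (hk : k ∈ K) :
    k ∈ pCoreOf 2 K ∨ x⁻¹ * k ∈ pCoreOf 2 K ∨ x * k ∈ pCoreOf 2 K := by
  haveI := CL.Grp.normal_subgroupOf_of_le_normalizer' (self_le_norm_core (p := 2) K)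
  set N := (pCoreOf 2 K).subgroupOf K with hN
  have hc : Nat.card (K ⧸ N) = 3 := h.idx
  have key : ∀ a b : K ⧸ N, a ≠ 1 → b = 1 ∨ a⁻¹ * b = 1 ∨ a * b = 1 := by
    haveI : Fact (Nat.Prime 3) := ⟨Nat.prime_three⟩
    haveI : Finite (K ⧸ N) := Nat.finite_of_card_ne_zero (by omega)
    intro a b ha
    have h3 : a ^ 3 = 1 := hc ▸ pow_card_eq_one'
    have ho := orderOf_eq_prime h3 ha
    have hb : b ∈ zpowers a := by
      rw [(zpowers a).eq_top_of_card_eq (by rw [Nat.card_zpowers, ho, hc])]; exact mem_top _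
    obtain ⟨n, rfl⟩ := (mem_powers_iff_mem_zpowers).2 hb
    simp only
    rw [← pow_mod_orderOf, ho]
    have : n % 3 = 0 ∨ n % 3 = 1 ∨ n % 3 = 2 := by omega
    rcases this with e | e | e <;> rw [e]
    · simp
    · simp
    · right; right; rw [← pow_succ']; exact h3
  have := key (⟨x, hx⟩ : K) (⟨k, hk⟩ : K) (by rwa [Ne, QuotientGroup.eq_one_iff])
  rwa [← QuotientGroup.mk_inv, ← QuotientGroup.mk_mul, ← QuotientGroup.mk_mul, QuotientGroup.eq_one_iff,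
    QuotientGroup.eq_one_iff, QuotientGroup.eq_one_iff] at this

theorem mem_rK {x a : G} (hx : x ∈ K) (hn : x ∉ pCoreOf 2 K) (ha : a ∈ 𝒩(K)) :
    a ∈ rK K ↔ ⁅x, a⁆ ∈ pCoreOf 2 K := by
  refine ⟨fun e => (mem_cmod.1 e).2 x hx, fun e => ⟨norm_le_norm_core K ha, fun v hv => comm_swap ?_⟩⟩
  have h1 : pCoreOf 2 K ⊔ zpowers x ≤ cm1 a (pCoreOf 2 K) :=
    sup_le (fun u hu => ⟨le_normalizer hu, comm_mem_norm (norm_le_norm_core K ha) hu⟩)
      (zpowers_le.2 ⟨self_le_norm_core K hx, comm_swap e⟩)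
  exact (h1 ((h.sup_zp hx hn).ge hv)).2

theorem le_rK : K ≤ rK K := by
  obtain ⟨x, hx, hn, -⟩ := h.exists_x
  have h1 : pCoreOf 2 K ⊔ zpowers x ≤ cm1 x (pCoreOf 2 K) :=
    sup_le (fun u hu => ⟨le_normalizer hu, comm_mem_norm (self_le_norm_core K hx) hu⟩)
      (zpowers_le.2 ⟨self_le_norm_core K hx, by simp⟩)
  exact fun k hk => (h.mem_rK hx hn (le_normalizer hk)).2 (h1 ((h.sup_zp hx hn).ge hk)).2

theorem inverts {x a : G} (hx : x ∈ K) (hn : x ∉ pCoreOf 2 K) (ha : a ∈ 𝒩(K)) (hr : a ∉ rK K) :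
    x * (a * x * a⁻¹) ∈ pCoreOf 2 K := by
  rcases h.cases hx hn (conj_mem ha hx) with e | e | e
  · exact absurd (by simpa [mul_assoc] using conj_mem' (norm_le_norm_core K ha) e) hn
  · refine absurd ((h.mem_rK hx hn ha).2 (comm_swap ?_)) hr
    simpa [commutatorElement_def, mul_assoc] using conj_mem (self_le_norm_core K hx) e
  · exact e

theorem mul_mem_rK {a b : G} (ha : a ∈ 𝒩(K)) (hb : b ∈ 𝒩(K)) (ha' : a ∉ rK K) (hb' : b ∉ rK K) :
    a * b ∈ rK K := by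
  obtain ⟨x, hx, hn, -⟩ := h.exists_x
  have h1 := h.inverts hx hn ha ha'
  have h2 := conj_mem (norm_le_norm_core K ha) (h.inverts hx hn hb hb')
  refine (h.mem_rK hx hn (mul_mem ha hb)).2 (comm_swap ?_)
  have e : ⁅a * b, x⁆ = (a * x * a⁻¹)⁻¹ * (a * (x * (b * x * b⁻¹)) * a⁻¹) * (a * x * a⁻¹) *
      ((x * (a * x * a⁻¹))⁻¹) := by simp only [commutatorElement_def]; group
  rw [e]
  exact mul_mem (conj_mem' (self_le_norm_core K (conj_mem ha hx)) h2) (inv_mem h1)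

theorem relIndex_rK {P : Subgroup G} (hP : P ≤ 𝒩(K)) (hn : ¬ P ≤ rK K) : (rK K).relIndex P = 2 :=
  relIndex_eq_two (fun _ ha _ hb => h.mul_mem_rK (hP ha) (hP hb)) hn

theorem comm_not_mem {x a : G} (hx : x ∈ K) (hn : x ∉ pCoreOf 2 K) (ha : a ∈ 𝒩(K)) (hr : a ∉ rK K) :
    ⁅x, a⁆ ∈ K ∧ ⁅x, a⁆ ∉ pCoreOf 2 K :=
  ⟨comm_swap (comm_mem_norm ha hx), fun e => hr ((h.mem_rK hx hn ha).2 e)⟩

variable [Finite G]

theorem eq_of_norm {X : Subgroup G} (hX : X ≤ K) (hn : pCoreOf 2 K ≤ 𝒩(X)) (h' : ¬ X ≤ pCoreOf 2 K) : X = K := by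
  refine le_antisymm hX ?_
  nth_rewrite 1 [← h.res, ← h.sup_eq hX h']
  exact res_sup_le_of_isPGroup (core_isP K) hn

theorem comm_eq {A : Subgroup G} (hA : A ≤ 𝒩(K)) (hr : ¬ A ≤ rK K) : ⁅K, A⁆ = K :=
  h.eq_of_norm (commutator_le_of_le_norm hA) ((core_le K).trans (normalizer_commutator_ge_left _ _))
    fun e => hr (le_cmod (le_norm_core hA) e)

/-- a subgroup normalised by `K` and containing an element moving `K / O₂(K)` contains `K` -/
theorem le_of_mem {Y : Subgroup G} (hY : K ≤ 𝒩(Y)) {a : G} (ha : a ∈ 𝒩(K)) (hr : a ∉ rK K) (haY : a ∈ Y) :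
    K ≤ Y := by
  rw [← h.comm_eq (zpowers_le.2 ha) (by rwa [zpowers_le])]
  exact (commutator_mono le_rfl (zpowers_le.2 haY)).trans (commutator_le_of_le_norm' hY)

section mod
variable {Y : Subgroup G} (hY : IsElementaryAbelian 2 Y) (hn : K ≤ 𝒩(Y)) (hc : pCoreOf 2 K ≤ 𝒞(Y))
include hY hn hc

omit [Finite G] hY in
theorem comm_zp {x : G} (hx : x ∈ K) (hx' : x ∉ pCoreOf 2 K) : ⁅Y, zpowers x⁆ = ⁅Y, K⁆ := by
  refine le_antisymm (commutator_mono le_rfl (zpowers_le.2 hx)) ?_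
  nth_rewrite 1 [← h.sup_zp hx hx']
  refine commutator_sup_le (hc.trans ((cent_mono (commutator_le_of_le_norm (zpowers_le.2 (hn hx)))).trans
    (cent_le_norm _))) (normalizer_commutator_ge_right _ _) ?_ le_rfl
  rw [commutator_eq_bot_iff'.2 hc]; exact bot_le

theorem comm_inf_cent : ⁅Y, K⁆ ⊓ 𝒞(K) = ⊥ := by
  obtain ⟨x, hx, hx', ho⟩ := h.exists_x
  rw [eq_bot_iff, ← CL.NGrp.cz_inf_comm (elem_isP hY) (elem_le_cent hY) ho (hn hx), h.comm_zp hn hc hx hx']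
  exact inf_le_inf_left _ (cent_mono (zpowers_le.2 hx))

omit hc in
theorem comm_comm : ⁅⁅Y, K⁆, K⁆ = ⁅Y, K⁆ := by
  have := commutator_res_res (p := 2) (elem_isP hY) (K := K) (by rw [h.res]; exact hn)
  rwa [h.res] at this

theorem comm_sup_cent : ⁅Y, K⁆ ⊔ (Y ⊓ 𝒞(K)) = Y := by
  obtain ⟨x, hx, hx', ho⟩ := h.exists_x
  have h1 := CL.NGrp.comm_sup_cz (elem_isP hY) ho (hn hx)
  rw [h.comm_zp hn hc hx hx'] at h1
  refine le_antisymm (sup_le (commutator_le_of_le_norm hn) inf_le_left) (h1.ge.trans (sup_le_sup_left ?_ _))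
  refine le_inf inf_le_left ?_
  nth_rewrite 1 [← h.sup_zp hx hx', cent_sup]
  exact le_inf (inf_le_left.trans (le_centralizer_iff.1 hc)) inf_le_right

end mod

theorem w_inf_cent : wOf K ⊓ 𝒞(K) = ⊥ :=
  h.comm_inf_cent (ozc_elem _) (le_norm_ozc (self_le_norm_core K)) (le_cent_ozc _)

theorem w_inf_cz {x : G} (hx : x ∈ K) (hx' : x ∉ pCoreOf 2 K) : wOf K ⊓ 𝒞(zpowers x) = ⊥ := by
  rw [eq_bot_iff, ← h.w_inf_cent]
  refine le_inf inf_le_left ?_
  nth_rewrite 2 [← h.sup_zp hx hx']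
  rw [cent_sup]
  exact le_inf (inf_le_left.trans (le_centralizer_iff.1 (core_le_cent_w K))) inf_le_right

theorem four_le {Y : Subgroup G} (hY : Y ≤ wOf K) (hn : K ≤ 𝒩(Y)) (h0 : Y ≠ ⊥) : 4 ≤ Nat.card Y := by
  obtain ⟨x, hx, hx', -⟩ := h.exists_x
  refine CL.NGrp.four_le_card ((elem_isP (w_elem K)).to_le hY) (hn hx) ?_ h0
  rw [eq_bot_iff, ← h.w_inf_cz hx hx']
  exact inf_le_inf_right _ hY

theorem eq_w (h4 : Nat.card (wOf K) = 4) {Y : Subgroup G} (hY : Y ≤ wOf K) (hn : K ≤ 𝒩(Y)) (h0 : Y ≠ ⊥) :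
    Y = wOf K := eq_of_le_of_card_ge hY (h4 ▸ h.four_le hY hn h0)

theorem not_cent_w (h0 : wOf K ≠ ⊥) {a : G} (ha : a ∈ 𝒩(K)) (hr : a ∉ rK K) : a ∉ 𝒞(wOf K) := fun e => h0 (by
  have := h.le_of_mem (le_norm_cent (le_normalizer.trans (norm_le_norm_w K))) ha hr e
  rw [eq_bot_iff, ← h.w_inf_cent]
  exact le_inf le_rfl (le_centralizer_iff.1 this))

omit h in
theorem norm_inf_cent {B Y : Subgroup G} (hB : B ≤ rK K) (hn : K ≤ 𝒩(Y)) (hc : pCoreOf 2 K ≤ 𝒞(Y)) :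
    K ≤ 𝒩(Y ⊓ 𝒞(B)) := by
  refine le_norm_of_cj_le fun k hk => ?_
  rintro _ ⟨w, hw, rfl⟩
  refine mem_inf.2 ⟨conj_mem (hn hk) hw.1, fun b hb => ?_⟩
  have h1 : w * ⁅k⁻¹, b⁆ = ⁅k⁻¹, b⁆ * w := comm_of_mem (hc ((hB hb).2 _ (inv_mem hk))) hw.1
  have h2 : b * w = w * b := hw.2 b hb
  show b * (k * w * k⁻¹) = k * w * k⁻¹ * b
  calc b * (k * w * k⁻¹) = k * ⁅k⁻¹, b⁆ * (b * w) * k⁻¹ := by simp only [commutatorElement_def]; group
    _ = k * (⁅k⁻¹, b⁆ * w) * b * k⁻¹ := by rw [h2]; group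
    _ = _ := by rw [← h1]; simp only [commutatorElement_def]; group

theorem le_cent_w (h4 : Nat.card (wOf K) = 4) {B : Subgroup G} (hB : IsPGroup 2 B) (hn : B ≤ 𝒩(K))
    (hr : B ≤ rK K) : B ≤ 𝒞(wOf K) := by
  have h0 : wOf K ≠ ⊥ := fun e => by rw [e] at h4; simp at h4
  have := h.eq_w h4 inf_le_left (norm_inf_cent hr (le_normalizer.trans (norm_le_norm_w K)) (core_le_cent_w K))
    (inf_cent_ne_bot (elem_isP (w_elem K)) hB (hn.trans (norm_le_norm_w K)) h0)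
  exact le_centralizer_iff.1 (this.ge.trans inf_le_right)

theorem card_inf_cz (h4 : Nat.card (wOf K) = 4) {a : G} (ha : a ∈ 𝒩(K)) (hr : a ∉ rK K) :
    Nat.card (wOf K ⊓ 𝒞(zpowers a) : Subgroup G) ≤ 2 := by
  have h0 : wOf K ≠ ⊥ := fun e => by rw [e] at h4; simp at h4
  have h1 : wOf K ⊓ 𝒞(zpowers a) < wOf K :=
    lt_of_le_of_ne inf_le_left fun e => h.not_cent_w h0 ha hr (cz_comm.1 (e.ge.trans inf_le_right))
  have := mul_card_le_of_lt (elem_isP (w_elem K)) h1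
  omega

/-- `W_K` has order 4 as soon as a maximal elementary abelian subgroup moves `K / O₂(K)` -/
theorem card_w {P A : Subgroup G} (hA : A ∈ meaIn 2 P) (hWP : wOf K ≤ P) (hn : A ≤ 𝒩(K)) (hr : ¬ A ≤ rK K)
    (h0 : wOf K ≠ ⊥) : Nat.card (wOf K) = 4 := by
  set W := wOf K with hW
  obtain ⟨x, hx, hx', ho⟩ := h.exists_x
  obtain ⟨a, ha, ha'⟩ := SetLike.not_le_iff_exists.1 hr
  have hAe := meaIn_ea hA
  have hKW : K ≤ 𝒩(W) := le_normalizer.trans (norm_le_norm_w K)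
  have hAW : A ≤ 𝒩(W) := hn.trans (norm_le_norm_w K)
  have hWe := w_elem K
  set A0 := A ⊓ rK K with hA0
  have c1 : Nat.card A ≤ 2 * Nat.card A0 := card_le_two_mul fun _ ha _ hb => h.mul_mem_rK (hn ha) (hn hb)
  set U1 := W ⊓ 𝒞(A0) with hU1
  set Y := U1 ⊓ 𝒞(zpowers a) with hY
  have key : ∀ B ≤ A0, Nat.card B * Nat.card (W ⊓ 𝒞(B) : Subgroup G) ≤ Nat.card A * Nat.card Y := by
    intro B hB
    have hBA : B ≤ A := hB.trans inf_le_left
    have h1 : B ≤ 𝒞(W ⊓ 𝒞(B)) := le_centralizer_iff.1 inf_le_right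
    rw [← CL.Grp.card_sup_mul_card_inf (h1.trans (cent_le_norm _))]
    refine Nat.mul_le_mul (meaIn_card_le hA (sup_le (hBA.trans (meaIn_le hA)) (inf_le_left.trans hWP))
      (elem_sup (elem_of_le hAe hBA) (elem_of_le hWe inf_le_left) h1)) (card_le_of_le (le_inf (le_inf
        (inf_le_right.trans inf_le_left) ?_) ?_))
    · exact inf_le_left.trans (hBA.trans ((elem_le_cent hAe).trans (cent_mono inf_le_left)))
    · exact inf_le_left.trans (hBA.trans ((elem_le_cent hAe).trans (cent_mono (zpowers_le.2 ha))))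
  have hKU : ∀ B ≤ A0, K ≤ 𝒩(W ⊓ 𝒞(B)) := fun B hB =>
    norm_inf_cent (hB.trans inf_le_right) hKW (core_le_cent_w K)
  have c2 : Nat.card U1 ≤ 2 * Nat.card Y := by
    have := (key A0 le_rfl).trans (Nat.mul_le_mul_right _ c1)
    rw [mul_comm 2, mul_assoc] at this
    exact Nat.le_of_mul_le_mul_left this Nat.card_pos
  have c3 : Nat.card Y * Nat.card Y ≤ Nat.card U1 := by
    have hxY : cj x Y ≤ U1 := cj_le_of_le inf_le_left (hKU A0 le_rfl hx)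
    have h1 : Y ⊓ cj x Y = ⊥ := by
      obtain ⟨k1, k2⟩ := h.comm_not_mem hx hx' (hn ha) ha'
      rw [eq_bot_iff, ← h.w_inf_cz k1 k2]
      refine le_inf (inf_le_left.trans (inf_le_left.trans inf_le_left)) fun y hy => mem_cz.2 ?_
      have e1 : Commute a y := mem_cz.1 hy.1.2
      have e2 : Commute (x * a * x⁻¹) y := by
        have := mem_cz.1 (mem_cj.1 hy.2).2
        show x * a * x⁻¹ * y = y * (x * a * x⁻¹)
        calc _ = x * (a * (x⁻¹ * y * x)) * x⁻¹ := by group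
          _ = _ := by rw [this]; group
      exact e2.mul_left e1.inv_left
    have h2 := CL.Grp.card_sup_of_inf_eq_bot (ea_le_normalizer_of_le hWe (inf_le_left.trans inf_le_left)
      (hxY.trans inf_le_left)) h1
    rw [card_cj] at h2
    rw [← h2]
    exact card_le_of_le (sup_le inf_le_left hxY)
  have c4 : Nat.card Y ≤ 2 := Nat.le_of_mul_le_mul_right (c3.trans c2) Nat.card_pos
  have c5 : 4 ≤ Nat.card U1 := h.four_le inf_le_left (hKU A0 le_rfl)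
    (inf_cent_ne_bot (elem_isP hWe) ((elem_isP hAe).to_le inf_le_left) (inf_le_left.trans hAW) h0)
  have c6 : Nat.card U1 = 4 := by omega
  by_contra hne
  have hnle : ¬ W ≤ U1 := fun e => hne (by rw [← c6, le_antisymm e inf_le_left])
  obtain ⟨i, hi, hi'⟩ := exists_iter_not_le (exists_iter_eq_bot (elem_isP hWe) (elem_isP hAe) hAW) hnle
  obtain ⟨y, hy, hy'⟩ := SetLike.not_le_iff_exists.1 hi
  have hyW : y ∈ W := iter_le hAW i hy
  have hyA : ∀ b ∈ A, ⁅y, b⁆ ∈ U1 := fun b hb => hi' (commutator_mem_commutator hy hb)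
  have hyY : ∀ b ∈ A0, ⁅y, b⁆ ∈ Y := by
    intro b hb
    refine mem_inf.2 ⟨hyA b hb.1, mem_cz.2 ?_⟩
    have e1 : b * ⁅y, a⁆ = ⁅y, a⁆ * b := (hyA a ha).2 b hb
    have e2 : a * b = b * a := ea_mul_comm hAe ha hb.1
    have e3 : ⁅y, a⁆ * y = y * ⁅y, a⁆ := ea_mul_comm hWe (hyA a ha).1 hyW
    have e4 : ⁅y, a⁆ * ⁅y, b⁆ = ⁅y, b⁆ * ⁅y, a⁆ := ea_mul_comm hWe (hyA a ha).1 (hyA b hb.1).1
    have e5 : a * y * a⁻¹ = ⁅y, a⁆⁻¹ * y := by simp only [commutatorElement_def]; group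
    have e6 : a * ⁅y, b⁆ * a⁻¹ = (a * y * a⁻¹) * (a * b * a⁻¹) * (a * y * a⁻¹)⁻¹ * (a * b * a⁻¹)⁻¹ := by
      simp only [commutatorElement_def]; group
    rw [← mul_inv_eq_iff_eq_mul, e6, e5, e2, mul_inv_cancel_right]
    generalize ⁅y, a⁆ = c at *
    calc c⁻¹ * y * b * (c⁻¹ * y)⁻¹ * b⁻¹ = c⁻¹ * (y * b * y⁻¹ * b⁻¹) * (b * c) * b⁻¹ := by group
      _ = c⁻¹ * (⁅y, b⁆ * c) := by rw [e1, commutatorElement_def]; group
      _ = _ := by rw [← e4]; group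
  set A1 := A0 ⊓ 𝒞(zpowers y) with hA1
  have c7 : Nat.card A0 ≤ 2 * Nat.card A1 := card_le_two_mul fun b hb b' hb' n1 n2 => by
    have m : ∀ c, c ∉ 𝒞(zpowers y) → ⁅y, c⁆ ≠ 1 := fun c hc e => hc (mem_cz.2 (commutatorElement_eq_one_iff_mul_comm.1 e))
    have e1 := eq_of_card_le_two c4 (hyY b hb) (hyY b' hb') (m b n1) (m b' n2)
    have e2 : b * ⁅y, b'⁆ = ⁅y, b'⁆ * b := (hyA b' hb'.1).2 b hb
    have e3 : ⁅y, b'⁆ ^ 2 = 1 := ea_pow hWe (hyA b' hb'.1).1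
    refine mem_cz.2 (commutatorElement_eq_one_iff_mul_comm.1 ?_)
    calc ⁅y, b * b'⁆ = ⁅y, b⁆ * (b * ⁅y, b'⁆ * b⁻¹) := by simp only [commutatorElement_def]; group
      _ = 1 := by rw [e1, e2, mul_inv_cancel_right, ← pow_two, e3]
  set U3 := W ⊓ 𝒞(A1) with hU3
  have hle : U1 ≤ U3 := inf_le_inf_left _ (cent_mono inf_le_left)
  have hy3 : y ∈ U3 := mem_inf.2 ⟨hyW, cz_comm.1 inf_le_right⟩
  have c8 : Nat.card U3 ≤ 8 := by
    have h1 := key A1 inf_le_left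
    have h2 : Nat.card A * Nat.card Y ≤ Nat.card A1 * 8 := by
      calc Nat.card A * Nat.card Y ≤ (2 * (2 * Nat.card A1)) * 2 := Nat.mul_le_mul (by omega) c4
        _ = _ := by ring
    exact Nat.le_of_mul_le_mul_left (h1.trans h2) Nat.card_pos
  have c9 : U1.relIndex U3 = 2 := by
    have h1 := CL.Grp.card_mul_relIndex hle
    have h2 : U1.relIndex U3 ≠ 1 := fun e => hy' (relIndex_eq_one.1 e hy3)
    have h3 : 0 < Nat.card U3 := Nat.card_pos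
    rw [c6] at h1
    omega
  have h1 := CL.NGrp.le_comm_of_fpf ((elem_isP hWe).to_le (inf_le_left : U3 ≤ W)) ho (hKU A1 inf_le_left hx) (by
    rw [eq_bot_iff, ← h.w_inf_cz hx hx']; exact inf_le_inf_right _ inf_le_left)
  refine hy' ((h1.ge.trans ?_) hy3)
  refine commutator_le_of_le_cmod (zpowers_le.2 ⟨hKU A0 le_rfl hx, fun v hv => ?_⟩)
  have h2 : x * v⁻¹ * x⁻¹ ∈ U3 := conj_mem (hKU A1 inf_le_left hx) (inv_mem hv)
  have h3 := (mul_mem_two c9 hv h2).2 ⟨fun e => conj_mem (hKU A0 le_rfl hx) (inv_mem e), fun e => by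
    have := conj_mem' (hKU A0 le_rfl hx) (inv_mem e)
    rwa [show x⁻¹ * (x * v⁻¹ * x⁻¹)⁻¹ * x = v by group] at this⟩
  simpa [commutatorElement_def, mul_assoc] using h3

end K3

end CL.KS12
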