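/-
KS12, part B: elementary properties of `J(T)`-components (12.1.1, 12.1.5).
-/
import Cfsg.Agent.Even.KS12.A

set_option autoImplicit false

open Cfsg Subgroup CL.Even CL.Loc
open CL.Grp (IsSylowIn SubnIn)
open scoped commutatorElement

namespace CL.KS12

variable {G : Type*} [Group G] {T K : Subgroup G}

theorem sylTwo_iff {T L : Subgroup G} : IsSylowTwoIn T L ↔ IsSylowIn 2 T L := by
  rw [IsSylowTwoIn, IsSylowIn, ← even_iff_two_dvd, Nat.not_even_iff_odd]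

theorem res_two (K : Subgroup G) : closure {g : G | g ∈ K ∧ Odd (orderOf g)} = pResidualOf 2 K := by
  simp only [res_eq_closure, Nat.coprime_two_right]

theorem j_isP (hT : IsPGroup 2 T) : IsPGroup 2 (𝐉[2] T) := hT.to_le (thompsonSubgroupOf_le T)

theorem mk_jc (h : K3 K) (hc : ⁅K, 𝐉[2] T⁆ = K)
    (hS : ∀ S, IsSylowIn 2 S (K ⊔ 𝐉[2] T) → 𝐉[2] T ≤ S → 𝐉[2] S = 𝐉[2] T) (h4 : Nat.card (wOf K) = 4) :
    IsJComponent T K :=
  ⟨(res_two K).trans h.res, hc, h.idx, fun S h1 => hS S (sylTwo_iff.1 h1), h4, fun w hw => by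
    rw [← pow_two]; exact ea_pow (w_elem K) hw⟩

/-- a 2-subgroup of `L` containing `J(T)`, `T` Sylow in `L`, has Thompson subgroup `J(T)` -/
theorem j_eq_of_syl [Finite G] {L P : Subgroup G} (hT : IsSylowIn 2 T L) (hP : IsPGroup 2 P) (hPL : P ≤ L)
    (hJ : 𝐉[2] T ≤ P) : 𝐉[2] P = 𝐉[2] T := by
  obtain ⟨l, hl, hle⟩ := syl_conj_le hT hP hPL
  obtain ⟨A, hA⟩ := exists_mem_meaIn 2 T
  have h1 : cj l A ∈ meaIn 2 T := mem_meaIn_of_card_le hA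
    ((cj_mono l ((le_thompsonSubgroupOf hA).trans hJ)).trans hle) (ea_map (meaIn_ea hA) _) (card_cj l A).ge
  have h2 : 𝐉[2] (cj l P) ≤ 𝐉[2] T :=
    thompsonSubgroupOf_mono_of_mem h1 (cj_mono l ((le_thompsonSubgroupOf hA).trans hJ)) hle
  have h3 : A ∈ meaIn 2 P := by
    have := mea_cj (mem_meaIn_of_le h1 (cj_mono l ((le_thompsonSubgroupOf hA).trans hJ)) hle) l⁻¹
    rwa [cj_inv_cj, cj_inv_cj] at this
  have h4 : 𝐉[2] T ≤ 𝐉[2] P := by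
    rw [← thompsonSubgroupOf_thompsonSubgroupOf T]
    exact thompsonSubgroupOf_mono_of_mem h3 (le_thompsonSubgroupOf hA) hJ
  refine (eq_of_le_of_card_ge h4 ?_).symm
  rw [← card_cj l, cj_thom]
  exact card_le_of_le h2

namespace JC

variable (h : IsJComponent T K)
include h

theorem k3 : K3 K := ⟨(res_two K).symm.trans h.1, h.2.2.1⟩

theorem comm : ⁅K, 𝐉[2] T⁆ = K := h.2.1

theorem card : Nat.card (wOf K) = 4 := h.2.2.2.2.1

theorem w_ne : wOf K ≠ ⊥ := fun e => by have := card h; rw [e] at this; simp at this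

theorem jn : 𝐉[2] T ≤ 𝒩(K) := by
  have := normalizer_commutator_ge_right K (𝐉[2] T)
  rwa [comm h] at this

theorem not_le_rK : ¬ 𝐉[2] T ≤ rK K := fun e =>
  (k3 h).not_le ((comm h).ge.trans (commutator_le_of_le_cmod e))

theorem exists_mea : ∃ A ∈ meaIn 2 T, ¬ A ≤ rK K := by
  by_contra hn
  push Not at hn
  exact not_le_rK h (thompsonSubgroupOf_le_iff.2 hn)

theorem congr {T' : Subgroup G} (e : 𝐉[2] T' = 𝐉[2] T) : IsJComponent T' K := by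
  unfold IsJComponent at h ⊢
  rwa [e]

theorem conj (g : G) : IsJComponent (cj g T) (cj g K) := by
  refine mk_jc ((k3 h).conj g) (by rw [← cj_thom, ← cj_commutator, comm h]) (fun S hS hJ => ?_)
    (by rw [← cj_w, card_cj, card h])
  have h1 := syl_cj hS g⁻¹
  rw [← cj_thom, ← cj_sup, cj_inv_cj] at h1
  have h2 := h.2.2.2.1 _ (sylTwo_iff.2 h1) (le_cj_iff.2 (by rwa [inv_inv, cj_thom]))
  rw [← cj_thom, ← h2, ← cj_thom, cj_cj_inv]

theorem conj_of_norm {g : G} (hg : g ∈ 𝒩(𝐉[2] T)) : IsJComponent T (cj g K) :=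
  congr (conj h g) (by rw [← cj_thom, cj_eq hg])

theorem not_le_norm {P : Subgroup G} (hP : IsPGroup 2 P) (hJ : 𝐉[2] T ≤ P) : ¬ K ≤ 𝒩(P) := fun e =>
  (k3 h).not_isP (hP.to_le ((comm h).ge.trans ((commutator_mono le_rfl hJ).trans (commutator_le_of_le_norm' e))))

variable [Finite G]

theorem res_sup (hT : IsPGroup 2 T) : pResidualOf 2 (K ⊔ 𝐉[2] T) = K := by
  rw [sup_comm, res_sup_eq_of_isPGroup (j_isP hT) (jn h), (k3 h).res]

/-- 12.1.1 -/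
theorem le_norm (hT : IsPGroup 2 T) {Q : Subgroup G} (h1 : K ≤ 𝒩(Q)) (h2 : Q ≤ 𝒩(𝐉[2] T)) : Q ≤ 𝒩(K) := by
  have e : ncl K (𝐉[2] T) = K ⊔ 𝐉[2] T := by rw [ncl_eq_sup_commutator, comm h, sup_comm]
  have h3 : Q ≤ 𝒩(ncl K (𝐉[2] T)) := by
    rw [ncl_def]
    refine le_norm_iSup fun k q hq => cj_eq_iff_mem.1 ?_
    rw [← cj_mul, show q * k = k * ((k : G)⁻¹ * q * k) by group, cj_mul, cj_eq (h2 (conj_mem' (h1 k.2) hq))]
  rw [e] at h3
  have := le_norm_res (p := 2) h3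
  rwa [res_sup h hT] at this

variable (hT : IsPGroup 2 T)
include hT

omit [Finite G] in
theorem uj_isP : IsPGroup 2 (pCoreOf 2 K ⊔ 𝐉[2] T : Subgroup G) :=
  isPGroup_sup' (core_isP K) (j_isP hT) (le_norm_core (jn h))

theorem j_uj : 𝐉[2] (pCoreOf 2 K ⊔ 𝐉[2] T) = 𝐉[2] T := by
  obtain ⟨S, hS, hle⟩ := CL.Grp.exists_isSylowIn_ge (uj_isP h hT) (sup_le_sup_right (core_le K) _)
  have h1 := h.2.2.2.1 S (sylTwo_iff.2 hS) (le_sup_right.trans hle)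
  rw [thompsonSubgroupOf_eq_of_le (h1.le.trans le_sup_right) hle, h1]

theorem core_le_norm : pCoreOf 2 K ≤ 𝒩(𝐉[2] T) := by
  have := le_normalizer_thompsonSubgroupOf (p := 2) (pCoreOf 2 K ⊔ 𝐉[2] T)
  rw [j_uj h hT] at this
  exact le_sup_left.trans this

theorem mea_uj : meaIn 2 (pCoreOf 2 K ⊔ 𝐉[2] T) = meaIn 2 T := by
  rw [← meaIn_eq_of_le (j_uj h hT).le le_sup_right, meaIn_eq_of_le le_rfl (thompsonSubgroupOf_le T)]

theorem repl {A : Subgroup G} (hA : A ∈ meaIn 2 T) (hr : ¬ A ≤ rK K) : (A ⊓ rK K) ⊔ wOf K ∈ meaIn 2 T := by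
  have hn := (le_thompsonSubgroupOf hA).trans (jn h)
  have hAe := meaIn_ea hA
  have h1 : A ⊓ rK K ≤ 𝒞(wOf K) :=
    (k3 h).le_cent_w (card h) ((elem_isP hAe).to_le inf_le_left) (inf_le_left.trans hn) inf_le_right
  rw [← mea_uj h hT] at hA ⊢
  refine mem_meaIn_of_card_le hA (sup_le (inf_le_left.trans (meaIn_le hA)) ((w_le_core K).trans le_sup_left))
    (elem_sup (elem_of_le hAe inf_le_left) (w_elem K) h1) ?_
  obtain ⟨a, ha, ha'⟩ := SetLike.not_le_iff_exists.1 hr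
  have c1 : Nat.card A ≤ 2 * Nat.card (A ⊓ rK K : Subgroup G) :=
    card_le_two_mul fun _ ha _ hb => (k3 h).mul_mem_rK (hn ha) (hn hb)
  have c2 := CL.Grp.card_sup_mul_card_inf (h1.trans (cent_le_norm _))
  have c3 : Nat.card (A ⊓ rK K ⊓ wOf K : Subgroup G) ≤ 2 := by
    refine le_trans (card_le_of_le (le_inf inf_le_right ?_)) ((k3 h).card_inf_cz (card h) (hn ha) ha')
    exact inf_le_left.trans (inf_le_left.trans ((elem_le_cent hAe).trans (cent_mono (zpowers_le.2 ha))))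
  rw [card h] at c2
  have := Nat.mul_le_mul_left (Nat.card (A ⊓ rK K ⊔ wOf K : Subgroup G)) c3
  omega

theorem w_le_j : wOf K ≤ 𝐉[2] T := by
  obtain ⟨A, hA, hr⟩ := exists_mea h
  exact le_sup_right.trans (le_thompsonSubgroupOf (repl h hT hA hr))

theorem z0_inf_w : 𝛀[2] (𝐉[2] T) ⊓ wOf K = wOf K ⊓ 𝒞(𝐉[2] T) :=
  le_antisymm (le_inf inf_le_right (inf_le_left.trans (ozc_le_cent _))) (le_inf (le_ozc
    (elem_of_le (w_elem K) inf_le_left) (inf_le_left.trans (w_le_j h hT)) inf_le_right) inf_le_left)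

theorem card_zw : Nat.card (𝛀[2] (𝐉[2] T) ⊓ wOf K : Subgroup G) = 2 := by
  rw [z0_inf_w h hT]
  obtain ⟨a, ha, ha'⟩ := SetLike.not_le_iff_exists.1 (not_le_rK h)
  have h1 := (card_le_of_le (inf_le_inf_left (wOf K) (cent_mono (zpowers_le.2 ha)))).trans
    ((k3 h).card_inf_cz (card h) (jn h ha) ha')
  have h2 := (one_lt_card_iff_ne_bot _).2
    (inf_cent_ne_bot (elem_isP (w_elem K)) (j_isP hT) ((jn h).trans (norm_le_norm_w K)) (w_ne h))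
  omega

/-- 12.1.5 -/
theorem split {z : G} (hz : z ∈ 𝛀[2] (𝐉[2] T)) :
    ∃ w ∈ 𝛀[2] (𝐉[2] T) ⊓ wOf K, ∃ d ∈ 𝛀[2] (𝐉[2] T) ⊓ 𝒞(K), z = w * d := by
  have k3 := k3 h
  obtain ⟨A, hA, hr⟩ := exists_mea h
  obtain ⟨a, ha, ha'⟩ := SetLike.not_le_iff_exists.1 hr
  obtain ⟨x, hx, hx', ho⟩ := k3.exists_x
  have haJ : a ∈ 𝐉[2] T := le_thompsonSubgroupOf hA ha
  have hB := repl h hT hA hr
  set P := pCoreOf 2 K ⊔ 𝐉[2] T with hP
  set R := P ⊓ rK K with hR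
  have hUR : pCoreOf 2 K ≤ R := le_inf le_sup_left ((core_le K).trans k3.le_rK)
  have hKR : K ≤ 𝒩(R) := le_norm_of_commutator_le (by
    rw [commutator_comm]
    exact ((commutator_mono le_rfl inf_le_right).trans (commutator_le_of_le_cmod le_rfl)).trans hUR)
  have hBR : (A ⊓ rK K) ⊔ wOf K ≤ R :=
    sup_le (inf_le_inf_right _ ((le_thompsonSubgroupOf hA).trans le_sup_right)) ((w_le_core K).trans hUR)
  have hB' := hB
  rw [← mea_uj h hT] at hB'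
  have hJR : 𝐉[2] R ≤ 𝐉[2] T := (thompsonSubgroupOf_mono_of_mem hB' hBR inf_le_left).trans (j_uj h hT).le
  have hBR' := mem_meaIn_of_le hB' hBR inf_le_left
  have h0 : 𝛀[2] (𝐉[2] T) ≤ 𝛀[2] (𝐉[2] R) := le_ozc (ozc_elem _)
    ((zj_le_mea hB).trans (le_thompsonSubgroupOf hBR')) ((ozc_le_cent _).trans (cent_mono hJR))
  have hKZ : K ≤ 𝒩(𝛀[2] (𝐉[2] R)) := le_norm_ozc (le_norm_thom hKR)
  have hKW : K ≤ 𝒩(wOf K) := le_normalizer.trans (norm_le_norm_w K)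
  have hJW : 𝐉[2] T ≤ 𝒩(wOf K) := (jn h).trans (norm_le_norm_w K)
  have h1 : K ≤ cmod (𝛀[2] (𝐉[2] R)) (wOf K) := by
    refine k3.le_of_mem (le_norm_cmod hKZ hKW) (jn h haJ) ha' ⟨hJW haJ, fun v hv => ?_⟩
    obtain ⟨b, hb, w, hw, rfl⟩ := (mem_sup_nr (inf_le_left.trans ((le_thompsonSubgroupOf hA).trans hJW))).1
      (zj_le_mea hBR' hv)
    have e : b * a = a * b := ea_mul_comm (meaIn_ea hA) hb.1 ha
    have : ⁅b * w, a⁆ = b * (w * (a * w⁻¹ * a⁻¹)) * b⁻¹ := by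
      calc ⁅b * w, a⁆ = b * (w * (a * w⁻¹ * a⁻¹)) * (a * b⁻¹ * a⁻¹) := by simp only [commutatorElement_def]; group
        _ = _ := by rw [show a * b⁻¹ * a⁻¹ = b⁻¹ by rw [mul_inv_eq_iff_eq_mul, mul_inv_eq_iff_eq_mul, mul_assoc, ← e]; group]
    rw [this]
    exact conj_mem (hJW (le_thompsonSubgroupOf hA hb.1)) (mul_mem hw (conj_mem (hJW haJ) (inv_mem hw)))
  have h2 := (CL.NGrp.comm_sup_cz (ozc_isP (p := 2) (𝐉[2] R)) ho (hKZ hx)).ge (h0 hz)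
  obtain ⟨w, hw, d, hd, rfl⟩ := (mem_sup_nr (ea_le_normalizer_of_le (ozc_elem (p := 2) (𝐉[2] R))
    (commutator_le_of_le_norm (zpowers_le.2 (hKZ hx))) inf_le_left)).1 h2
  have hw : w ∈ wOf K := commutator_le_of_le_cmod ((zpowers_le.2 hx).trans h1) hw
  have hdW : ∀ k ∈ K, ⁅d, k⁆ ∈ wOf K := fun k hk => (h1 hk).2 d hd.1
  have hzJ : ∀ j ∈ 𝐉[2] T, j * (w * d) = w * d * j := fun j hj => ozc_le_cent _ hz j hj
  have hda : ∀ u ∈ pCoreOf 2 K, a * ⁅d, u⁆ = ⁅d, u⁆ * a := by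
    intro u hu
    have e1 : ⁅w * d, u⁆ = ⁅d, u⁆ := by
      have e2 : w * u = u * w := comm_of_mem (core_le_cent_w K hu) hw
      have e3 : w * ⁅d, u⁆ = ⁅d, u⁆ * w := ea_mul_comm (w_elem K) hw (hdW u (core_le K hu))
      calc ⁅w * d, u⁆ = (w * ⁅d, u⁆) * (u * w⁻¹ * u⁻¹) := by simp only [commutatorElement_def]; group
        _ = _ := by rw [e3, show u * w⁻¹ * u⁻¹ = w⁻¹ by rw [mul_inv_eq_iff_eq_mul, mul_inv_eq_iff_eq_mul, mul_assoc, ← e2]; group]; group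
    have e4 := hzJ a haJ
    have e5 := hzJ _ (mul_mem (conj_mem' (core_le_norm h hT hu) haJ) (inv_mem haJ))
    rw [← e1]
    generalize w * d = z at *
    rw [← mul_inv_eq_iff_eq_mul]
    calc a * ⁅z, u⁆ * a⁻¹ = (a * z) * a⁻¹ * u * (z⁻¹ * (z * (u⁻¹ * a * u * a⁻¹))) * (a * z⁻¹ * a⁻¹) *
          (u⁻¹ * a * u * a⁻¹)⁻¹ * u⁻¹ := by simp only [commutatorElement_def]; group
      _ = _ := by
        rw [show a * z⁻¹ * a⁻¹ = z⁻¹ by rw [mul_inv_eq_iff_eq_mul, mul_inv_eq_iff_eq_mul, mul_assoc, e4]; group,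
          e4, mul_inv_cancel_right, inv_mul_cancel_left, mul_assoc (z * u), mul_assoc (z * u),
          show u⁻¹ * a * u * a⁻¹ * z⁻¹ * (u⁻¹ * a * u * a⁻¹)⁻¹ = z⁻¹ by
            rw [mul_inv_eq_iff_eq_mul, mul_inv_eq_iff_eq_mul, mul_assoc z⁻¹, e5]; group]
        simp only [commutatorElement_def]
  have hdx : x * d = d * x := mem_cz.1 hd.2
  have hdU : d ∈ 𝒞(pCoreOf 2 K) := by
    intro u hu
    obtain ⟨k1, k2⟩ := k3.comm_not_mem (inv_mem hx) (by rwa [inv_mem_iff]) (jn h haJ) ha'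
    have e1 : Commute a ⁅d, u⁆ := hda u hu
    have e2 : Commute (x⁻¹ * a * x) ⁅d, u⁆ := by
      have e3 := hda _ (conj_mem (self_le_norm_core K hx) hu)
      have e4 : ⁅d, x * u * x⁻¹⁆ = x * ⁅d, u⁆ * x⁻¹ := by
        calc ⁅d, x * u * x⁻¹⁆ = (d * x) * u * (d * x)⁻¹ * (x * u⁻¹ * x⁻¹) := by
              simp only [commutatorElement_def]; group
          _ = _ := by rw [← hdx]; simp only [commutatorElement_def]; group
      rw [e4] at e3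
      show x⁻¹ * a * x * ⁅d, u⁆ = ⁅d, u⁆ * (x⁻¹ * a * x)
      calc _ = x⁻¹ * (a * (x * ⁅d, u⁆ * x⁻¹)) * x := by group
        _ = _ := by rw [e3]; group
    have e5 : ⁅d, u⁆ ∈ wOf K ⊓ 𝒞(zpowers ⁅x⁻¹, a⁆) := mem_inf.2 ⟨hdW u (core_le K hu), mem_cz.2 (by
      have := e2.mul_left e1.inv_left
      rwa [show x⁻¹ * a * x * a⁻¹ = ⁅x⁻¹, a⁆ by simp only [commutatorElement_def]; group] at this)⟩
    rw [k3.w_inf_cz k1 k2, mem_bot] at e5
    exact (commutatorElement_eq_one_iff_mul_comm.1 e5).symm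
  have hdK : d ∈ 𝒞(K) := by
    rw [← k3.sup_zp hx hx', cent_sup]; exact mem_inf.2 ⟨hdU, hd.2⟩
  have hdJ : d ∈ 𝒞(𝐉[2] T) := by
    intro j hj
    have e1 : j * d * j⁻¹ * d⁻¹ ∈ wOf K ⊓ 𝒞(K) := by
      refine mem_inf.2 ⟨?_, mul_mem (conj_mem (le_norm_cent (jn h) hj) hdK) (inv_mem hdK)⟩
      have : j * d * j⁻¹ * d⁻¹ = (j * w⁻¹ * j⁻¹) * w := by
        calc j * d * j⁻¹ * d⁻¹ = (j * w⁻¹ * j⁻¹) * (j * (w * d)) * j⁻¹ * d⁻¹ := by group
          _ = _ := by rw [hzJ j hj]; group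
      rw [this]
      exact mul_mem (conj_mem (hJW hj) (inv_mem hw)) hw
    rw [k3.w_inf_cent, mem_bot, mul_inv_eq_one, mul_inv_eq_iff_eq_mul] at e1
    exact e1
  have hd0 : d ∈ 𝛀[2] (𝐉[2] T) := mem_ozc.2 ⟨hJR (ozc_le _ hd.1), hdJ, (mem_ozc.1 hd.1).2.2⟩
  exact ⟨w, mem_inf.2 ⟨(mul_mem_cancel_right hd0).1 hz, hw⟩, d, mem_inf.2 ⟨hd0, hdK⟩, rfl⟩

theorem card_z0 : Nat.card (𝛀[2] (𝐉[2] T)) = 2 * Nat.card (𝛀[2] (𝐉[2] T) ⊓ 𝒞(K) : Subgroup G) := by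
  have h1 : (𝛀[2] (𝐉[2] T) ⊓ wOf K) ⊔ (𝛀[2] (𝐉[2] T) ⊓ 𝒞(K)) = 𝛀[2] (𝐉[2] T) :=
    le_antisymm (sup_le inf_le_left inf_le_left) fun z hz => by
      obtain ⟨w, hw, d, hd, rfl⟩ := split h hT hz
      exact mul_mem_sup hw hd
  have h2 := CL.Grp.card_sup_of_inf_eq_bot (H := 𝛀[2] (𝐉[2] T) ⊓ wOf K) (K := 𝛀[2] (𝐉[2] T) ⊓ 𝒞(K))
    (ea_le_normalizer_of_le (ozc_elem _) inf_le_left inf_le_left)
    (by rw [eq_bot_iff, ← (k3 h).w_inf_cent]; exact inf_le_inf inf_le_right inf_le_right)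
  rwa [h1, card_zw h hT] at h2

end JC

end CL.KS12
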