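/-
KS12, part C: failure of factorization for the members of `𝓛(T)`, transvections and the components they define.
-/
import Cfsg.Agent.Even.KS12.B
import Cfsg.Agent.Even.PMin
import Cfsg.Agent.Loc.FF3

set_option autoImplicit false

open Cfsg Subgroup CL.Even CL.Loc
open CL.Grp (IsSylowIn SubnIn pPrimeCoreOf)
open scoped commutatorElement

namespace CL.KS12

theorem zp_two {G : Type*} [Group G] {t u : G} (ht : t * t = 1) (hu : u ∈ zpowers t) : u = 1 ∨ u = t := by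
  obtain ⟨n, rfl⟩ := mem_zpowers_iff.1 hu
  have h2 : t ^ (2 : ℤ) = 1 := by rw [zpow_two, ht]
  rcases Int.even_or_odd' n with ⟨k, rfl | rfl⟩
  · left; rw [zpow_mul, h2, one_zpow]
  · right; rw [zpow_add, zpow_mul, h2, one_zpow, one_mul, zpow_one]

theorem inv_zpow_mod {G : Type*} [Group G] {Q : Subgroup G} {t y : G} (ht : t ∈ 𝒩(Q)) (hy : y ∈ 𝒩(Q))
    (h : t * y * t⁻¹ * y ∈ Q) (n : ℤ) : t * y ^ n * t⁻¹ * y ^ n ∈ Q := by
  have k := isKer_qmk Q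
  have e1 : qmk Q ⟨t, ht⟩ * qmk Q ⟨y, hy⟩ * (qmk Q ⟨t, ht⟩)⁻¹ * qmk Q ⟨y, hy⟩ = 1 := (k.eq_one (le_normalizer h)).2 h
  refine (k.eq_one (mul_mem (mul_mem (mul_mem ht (zpow_mem hy n)) (inv_mem ht)) (zpow_mem hy n))).1
    (show qmk Q ⟨t, ht⟩ * qmk Q ⟨y, hy⟩ ^ n * (qmk Q ⟨t, ht⟩)⁻¹ * qmk Q ⟨y, hy⟩ ^ n = 1 from ?_)
  rw [← conj_zpow, ← eq_inv_iff_mul_eq_one.2 e1 |>.symm, inv_zpow, inv_mul_cancel]

theorem k3_res {G : Type*} [Group G] [Finite G] {Q X : Subgroup G} (hQ : IsPGroup 2 Q) (hle : Q ≤ X)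
    (hn : X ≤ 𝒩(Q)) (h3 : Q.relIndex X = 3) :
    K3 (pResidualOf 2 X) ∧ pResidualOf 2 X ⊔ Q = X ∧ pCoreOf 2 (pResidualOf 2 X) = Q ⊓ pResidualOf 2 X := by
  have hS : IsSylowIn 2 Q X := ⟨hle, hQ, by rw [h3]; decide⟩
  have h1 : pCoreOf 2 (pResidualOf 2 X) = Q ⊓ pResidualOf 2 X := by
    rw [CL.Even.core_eq_inf_of_subnIn (subnIn_res X), le_antisymm (core_le_syl hS) (le_core hle hQ hn)]
  have h2 : pResidualOf 2 X ⊔ Q = X := by rw [sup_comm, syl_sup_res hS]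
  refine ⟨⟨res_res X, ?_⟩, h2, h1⟩
  rw [h1, inf_relIndex_right, ← CL.Grp.relIndex_sup_of_le_normalizer ((res_le X).trans hn), h2, h3]

section bar
variable {G : Type*} [Group G] [Finite G] {V H : Subgroup G} (h : FFHyp 2 V H)
include h

theorem ff_card {A : Subgroup G} (hA : IsTv 2 V H A) : Nat.card (⁅pPrimeCoreOf 2 H, A⁆ : Subgroup G) = 3 := by
  have := FFPair.card_core hA (h.pair_tvE hA)
  rwa [h.tvE_inf_core hA] at this

theorem ff_tri {s t : G} (hs : IsTv 2 V H (zpowers s)) (ht : IsTv 2 V H (zpowers t)) :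
    (⁅pPrimeCoreOf 2 H, zpowers s⁆ = ⁅pPrimeCoreOf 2 H, zpowers t⁆ ∧ s * t ∈ ⁅pPrimeCoreOf 2 H, zpowers t⁆) ∨
    (s * t = t * s ∧ ⁅V, ⁅pPrimeCoreOf 2 H, zpowers s⁆⁆ ⊓ ⁅V, ⁅pPrimeCoreOf 2 H, zpowers t⁆⁆ = ⊥) := by
  by_cases e : tvE 2 H (zpowers s) = tvE 2 H (zpowers t)
  · refine Or.inl ⟨by rw [← h.tvE_inf_core hs, ← h.tvE_inf_core ht, e], ?_⟩
    have h1 : s ∈ tvE 2 H (zpowers t) := e ▸ mem_sup_right (mem_zpowers s)
    obtain ⟨o, ho, u, hu, rfl⟩ := (mem_sup_nl (normalizer_commutator_ge_right _ _)).1 h1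
    have ot : orderOf t = 2 := by rw [← Nat.card_zpowers, ht.card]
    have t2 : t * t = 1 := by rw [← pow_two, ← ot, pow_orderOf_eq_one]
    by_cases h1 : u = 1
    · subst h1
      exact absurd (disjoint_iff.1 (FFHyp.disjoint_core (H := H) hs.isPGroup) ▸ inf_eq_left.2
        (zpowers_le.2 (by rw [mul_one]; exact commutator_core_le ht.le ho))).symm hs.ne_bot
    · rw [eq_of_card_le_two ht.card.le hu (mem_zpowers t) h1 (fun e => ht.ne_bot (by rw [e, zpowers_one_eq_bot])),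
        mul_assoc, t2, mul_one]
      exact ho
  · refine Or.inr ⟨?_, by rw [h.comm_tvE hs, h.comm_tvE ht, h.comm_inf_comm_eq_bot hs ht e]⟩
    have := h.commutator_tvE_eq_bot_of_ne hs ht e
    exact commutatorElement_eq_one_iff_mul_comm.1 (mem_bot.1 (this ▸ commutator_mem_commutator
      (mem_sup_right (mem_zpowers s)) (mem_sup_right (mem_zpowers t))))

end bar

variable {G : Type*} [Group G] {T L K : Subgroup G}

/-- the standing hypothesis on a solvable overgroup `L` of the Sylow subgroup `T` -/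
structure LH (T L : Subgroup G) : Prop where
  syl : IsSylowIn 2 T L
  sol : Group.IsSolvable L
  chr : IsCharP 2 L
  cz : L ⊓ 𝒞(𝛀[2] T) ≤ 𝒩(T)

/-- the module -/
abbrev vV (L : Subgroup G) : Subgroup G := largestPReducedOf 2 L

/-- the preimage of `O_{2'}(L / C_L(V))` -/
def oO (L : Subgroup G) : Subgroup G := L ⊓ gpre (hψ (vV L)) (pPrimeCoreOf 2 (him[vV L] L))

/-- involutions inducing transvections -/
structure Tv (L : Subgroup G) (t : G) : Prop where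
  mem : t ∈ L
  sq : t * t = 1
  card : Nat.card (⁅vV L, zpowers t⁆ : Subgroup G) = 2

/-- `[O, t] O₂(L)` -/
def xX (L : Subgroup G) (t : G) : Subgroup G := ⁅oO L, zpowers t⁆ ⊔ pCoreOf 2 L

/-- the centraliser of `C_L(V) / O₂(L)` -/
abbrev cC (L : Subgroup G) : Subgroup G := cmod (L ⊓ 𝒞(vV L)) (pCoreOf 2 L)

theorem oO_le (L : Subgroup G) : oO L ≤ L := inf_le_left

variable [Finite G]

theorem nV (L : Subgroup G) : L ≤ 𝒩(vV L) := self_le_norm_Y L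

theorem him_oO (L : Subgroup G) : him[vV L] (oO L) = pPrimeCoreOf 2 (him[vV L] L) :=
  gim_inf_gpre (CL.Grp.pPrimeCoreOf_le 2 _)

theorem le_norm_oO (L : Subgroup G) : L ≤ 𝒩(oO L) :=
  le_norm_inf_gpre (nV L) le_normalizer (nV L) (CL.Grp.le_normalizer_pPrimeCoreOf 2 _)

theorem c_le_oO (L : Subgroup G) : L ⊓ 𝒞(vV L) ≤ oO L := fun x hx =>
  mem_inf.2 ⟨hx.1, mem_gpre.2 ⟨nV L hx.1, by rw [hψ_eq_one.2 hx.2]; exact one_mem _⟩⟩

theorem q_le_c (L : Subgroup G) : pCoreOf 2 L ≤ L ⊓ 𝒞(vV L) := le_inf (core_le L) (core_le_cent_Y L)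

theorem le_norm_c (L : Subgroup G) : L ≤ 𝒩(L ⊓ 𝒞(vV L)) := le_norm_inf le_normalizer (le_norm_cent (nV L))

theorem le_norm_cC (L : Subgroup G) : L ≤ 𝒩(cC L) := le_norm_cmod (le_norm_c L) (self_le_norm_core L)

theorem comm_oO_le {X : Subgroup G} (hX : X ≤ L) : ⁅oO L, X⁆ ≤ oO L :=
  commutator_le_of_le_norm (hX.trans (le_norm_oO L))

theorem xX_le {t : G} (ht : t ∈ L) : xX L t ≤ oO L :=
  sup_le (comm_oO_le (zpowers_le.2 ht)) ((q_le_c L).trans (c_le_oO L))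

theorem oO_le_norm_xX (L : Subgroup G) (t : G) : oO L ≤ 𝒩(xX L t) :=
  le_norm_sup (normalizer_commutator_ge_left _ _) ((oO_le L).trans (self_le_norm_core L))

theorem cj_xX {g : G} (hg : g ∈ L) (t : G) : cj g (xX L t) = xX L (g * t * g⁻¹) := by
  rw [xX, xX, cj_sup, cj_commutator, cj_eq (le_norm_oO L hg), cj_eq (self_le_norm_core L hg),
    MonoidHom.map_zpowers]
  rfl

theorem him_xX {t : G} (ht : t ∈ L) :
    him[vV L] (xX L t) = ⁅pPrimeCoreOf 2 (him[vV L] L), zpowers (hψ (vV L) ⟨t, nV L ht⟩)⁆ := by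
  have h1 := (comm_oO_le (zpowers_le.2 ht)).trans ((oO_le L).trans (nV L))
  rw [xX, gim_sup h1 ((core_le L).trans (nV L)),
    ((isKer_hψ _).gim_eq_bot ((core_le L).trans (nV L))).2 (core_le_cent_Y L), sup_bot_eq,
    gim_commutator ((oO_le L).trans (nV L)) (zpowers_le.2 (nV L ht)), him_oO, gim_zpowers]

namespace Tv

variable {t : G} (ht : Tv L t)
include ht

theorem not_cent : t ∉ 𝒞(vV L) := fun e => by
  have := ht.card
  rw [commutator_eq_bot_iff'.2 (zpowers_le.2 e)] at this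
  simp at this

omit [Finite G] in
theorem isP : IsPGroup 2 (zpowers t) := isPGroup_zpowers (k := 1) (by rw [pow_one, pow_two, ht.sq])

theorem conj {g : G} (hg : g ∈ L) : Tv L (g * t * g⁻¹) :=
  ⟨mul_mem (mul_mem hg ht.mem) (inv_mem hg), by rw [conj_mul, ht.sq, mul_one, mul_inv_cancel], by
    rw [← ht.card, ← card_cj g ⁅vV L, zpowers t⁆, cj_commutator, cj_eq (nV L hg), MonoidHom.map_zpowers]; rfl⟩

theorem isTv : IsTv 2 (hem (vV L) (vV L)) (him[vV L] L) (zpowers (hψ (vV L) ⟨t, nV L ht.mem⟩)) := by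
  refine ⟨zpowers_le.2 (apply_mem_gim _ ht.mem), ?_, ?_⟩
  · rw [Nat.card_zpowers]
    refine orderOf_eq_prime ?_ fun e => ht.not_cent (hψ_eq_one.1 e)
    rw [← map_pow, show (⟨t, nV L ht.mem⟩ : 𝒩(vV L)) ^ 2 = 1 from Subtype.ext (by simp [pow_two, ht.sq]), map_one]
  · rw [← gim_zpowers, ← hem_commutator le_rfl (zpowers_le.2 (nV L ht.mem)),
      card_hem (commutator_le_of_le_norm (zpowers_le.2 (nV L ht.mem))), ht.card]

end Tv

namespace LH

variable (h : LH T L)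
include h

theorem q_le : pCoreOf 2 L ≤ T := core_le_syl h.syl

theorem v_le : vV L ≤ T := (Y_le_core L).trans h.q_le

theorem j_le : 𝐉[2] T ≤ L := (thompsonSubgroupOf_le T).trans h.syl.le

theorem c_le_norm : L ⊓ 𝒞(vV L) ≤ 𝒩(T) :=
  (inf_le_inf_left _ (cent_mono (ozc_syl_le_Y h.chr h.syl))).trans h.cz

theorem pClo_c : PClo 2 (L ⊓ 𝒞(vV L)) :=
  pClo_of_syl_norm (syl_inf_cent h.syl (nV L)) (le_norm_inf h.c_le_norm (le_norm_cent (inf_le_left.trans (nV L))))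

theorem le_q {P : Subgroup G} (hP : IsPGroup 2 P) (hle : P ≤ oO L) : P ≤ pCoreOf 2 L := by
  refine h.pClo_c.le_core_of_normal inf_le_left (le_norm_c L) (le_inf (hle.trans (oO_le L)) ?_) hP
  rw [← (isKer_hψ _).gim_eq_bot (hle.trans ((oO_le L).trans (nV L)))]
  exact disjoint_iff.1 (FFHyp.disjoint_core (H := him[vV L] L) (gim_isPGroup hP)) ▸
    (inf_eq_left.2 ((gim_mono hle).trans (him_oO L).le)).symm

theorem mem_of_sq {Y : Subgroup G} (hY : pCoreOf 2 L ≤ Y) {x : G} (hx : x ∈ oO L) (h2 : x ^ 2 ∈ Y) : x ∈ Y := by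
  obtain ⟨a, m, hm, e⟩ := Nat.exists_eq_two_pow_mul_odd (orderOf_pos x).ne'
  have h1 : x ^ m ∈ Y := hY (h.le_q (isPGroup_zpowers (x := x ^ m) (k := a)
    (by rw [← pow_mul, mul_comm, ← e, pow_orderOf_eq_one])) (zpowers_le.2 (pow_mem hx m)) (mem_zpowers _))
  obtain ⟨k, rfl⟩ := hm
  rwa [pow_succ, pow_mul, mul_mem_cancel_left (pow_mem h2 k)] at h1

theorem le_cC {P : Subgroup G} (hP : IsPGroup 2 P) (hle : P ≤ L) : P ≤ cC L := by
  obtain ⟨l, hl, h1⟩ := syl_conj_le h.syl hP hle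
  have h2 : T ≤ cC L := le_cmod (h.syl.le.trans (self_le_norm_core L))
    (h.le_q (h.syl.isPGroup.to_le (commutator_le_of_le_norm' h.c_le_norm))
      ((commutator_le_of_le_norm (h.syl.le.trans (le_norm_c L))).trans (c_le_oO L)))
  rw [← cj_le_cj (g := l), cj_eq (le_norm_cC L hl)]
  exact h1.trans h2

theorem ff : FFHyp 2 (hem (vV L) (vV L)) (him[vV L] L) := (Y_red L).ffHyp (nV L) (Y_elem L) h.sol

theorem card_xX {t : G} (ht : Tv L t) : Nat.card (him[vV L] (xX L t)) = 3 := by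
  rw [him_xX ht.mem, ff_card h.ff ht.isTv]

theorem tri {s t : G} (hs : Tv L s) (ht : Tv L t) :
    (him[vV L] (xX L s) = him[vV L] (xX L t) ∧ s * t ∈ xX L t ⊔ 𝒞(vV L)) ∨
    (⁅s, t⁆ ∈ 𝒞(vV L) ∧ ⁅vV L, xX L s⁆ ⊓ ⁅vV L, xX L t⁆ = ⊥) := by
  have n : ∀ {u : G}, Tv L u → xX L u ≤ 𝒩(vV L) := fun hu => (xX_le hu.mem).trans ((oO_le L).trans (nV L))
  rcases ff_tri h.ff hs.isTv ht.isTv with ⟨e1, e2⟩ | ⟨e1, e2⟩
  · rw [← him_xX hs.mem, ← him_xX ht.mem] at e1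
    rw [← him_xX ht.mem, ← map_mul] at e2
    exact Or.inl ⟨e1, ((isKer_hψ _).apply_mem (n ht) _).1 e2⟩
  · refine Or.inr ⟨?_, ?_⟩
    · have := commutatorElement_eq_one_iff_mul_comm.2 e1
      rw [← map_commutatorElement] at this
      exact hψ_eq_one.1 this
    · rwa [← him_xX hs.mem, ← him_xX ht.mem, ← hem_commutator le_rfl (n hs), ← hem_commutator le_rfl (n ht),
        ← hem_inf, ← hem_bot, hem_inj (inf_le_left.trans (commutator_le_of_le_norm (n hs))) bot_le] at e2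

/-- the members of `𝒜(T)` are generated by transvections modulo `O₂(L)` -/
theorem gen {A Y : Subgroup G} (hA : A ∈ meaIn 2 T) (h1 : A ⊓ pCoreOf 2 L ≤ Y) (h2 : ∀ t ∈ A, Tv L t → t ∈ Y) :
    A ≤ Y := by
  have hAL := (meaIn_le hA).trans h.syl.le
  have hAV := hAL.trans (nV L)
  have h3 := h.ff.le_sSup_prime (gim_mono hAL)
    (him_bestOffender hAV (bestOffender_of_mem_meaIn h.v_le (Y_elem L) hA))
  have h4 : him[vV L] A ≤ him[vV L] (A ⊓ Y) := h3.trans (sSup_le fun B ⟨b1, b2, b3⟩ y hy => by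
    by_cases e : y = 1
    · rw [e]; exact one_mem _
    obtain ⟨t, ht, htA, rfl⟩ := mem_gim.1 (b1 hy)
    have e2 : zpowers (hψ (vV L) ⟨t, ht⟩) = B := eq_of_le_of_card_ge (zpowers_le.2 hy) (by
      rw [b3]; exact (one_lt_card_iff_ne_bot _).2 (by rwa [Ne, zpowers_eq_bot]))
    refine apply_mem_gim _ (mem_inf.2 ⟨htA, h2 t htA ⟨hAL htA, by rw [← pow_two]; exact ea_pow (meaIn_ea hA) htA, ?_⟩⟩)
    rw [← card_hem (commutator_le_of_le_norm (zpowers_le.2 ht)), hem_commutator le_rfl (zpowers_le.2 ht),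
      gim_zpowers ht, e2]
    exact (h.ff.card_commutator_eq (b1.trans (gim_mono hAL)) b2 b3).1)
  intro a ha
  obtain ⟨b, hb, c, hc, rfl⟩ := (mem_sup_nr ((inf_le_left.trans hAV).trans (norm_le_norm_cent _))).1
    (((isKer_hψ _).gim_le hAV (inf_le_left.trans hAV)).1 h4 ha)
  have hcA : c ∈ A := (mul_mem_cancel_left (mem_inf.1 hb).1).1 ha
  exact mul_mem hb.2 (h1 (mem_inf.2 ⟨hcA, h.le_q ((elem_isP (meaIn_ea hA)).to_le (zpowers_le.2 hcA))
    (zpowers_le.2 (c_le_oO L (mem_inf.2 ⟨hAL hcA, hc⟩))) (mem_zpowers c)⟩))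

theorem gen_j {Y : Subgroup G} (h1 : 𝐉[2] T ⊓ pCoreOf 2 L ≤ Y) (h2 : ∀ A ∈ meaIn 2 T, ∀ t ∈ A, Tv L t → t ∈ Y) :
    𝐉[2] T ≤ Y :=
  thompsonSubgroupOf_le_iff.2 fun A hA =>
    h.gen hA ((inf_le_inf_right _ (le_thompsonSubgroupOf hA)).trans h1) (h2 A hA)

theorem comm_mem_oO {s t : G} (hs : Tv L s) (ht : Tv L t) : ⁅s, t⁆ ∈ oO L := by
  have hL : ⁅s, t⁆ ∈ L := commutator_le_of_le_norm le_normalizer (commutator_mem_commutator hs.mem ht.mem)
  rcases h.tri hs ht with ⟨-, e⟩ | ⟨e, -⟩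
  · have h1 : s * t ∈ oO L := by
      obtain ⟨x, hx, c, hc, e'⟩ := (mem_sup_nr ((xX_le ht.mem).trans ((oO_le L).trans
        ((nV L).trans (norm_le_norm_cent _))))).1 e
      rw [← e']
      exact mul_mem (xX_le ht.mem hx) (c_le_oO L (mem_inf.2 ⟨(mul_mem_cancel_left (oO_le L (xX_le ht.mem hx))).1
        (e' ▸ mul_mem hs.mem ht.mem), hc⟩))
    rw [commutatorElement_def, inv_eq_of_mul_eq_one_right hs.sq, inv_eq_of_mul_eq_one_right ht.sq, mul_assoc]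
    exact mul_mem h1 h1
  · exact c_le_oO L (mem_inf.2 ⟨hL, e⟩)

theorem comm_j {t j : G} (ht : Tv L t) (htT : t ∈ T) (hj : j ∈ 𝐉[2] T) : ⁅t, j⁆ ∈ pCoreOf 2 L := by
  refine (h.gen_j (Y := cm1 t (pCoreOf 2 L)) (fun q hq => ⟨le_normalizer hq.2,
    comm_mem_norm (self_le_norm_core L ht.mem) hq.2⟩) (fun A hA s hs hs' => ⟨self_le_norm_core L hs'.mem, ?_⟩) hj).2
  have hT : ⁅t, s⁆ ∈ T := commutator_le_of_le_norm le_normalizer (commutator_mem_commutator htT (meaIn_le hA hs))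
  exact h.le_q (h.syl.isPGroup.to_le (zpowers_le.2 hT)) (zpowers_le.2 (h.comm_mem_oO ht hs')) (mem_zpowers _)

/-- an element of `C_L(V)` whose product with an inverted element is inverted lies in `O₂(L)` -/
theorem mem_q_of_inv {t y c : G} (ht : t ∈ cC L) (hy : y ∈ cC L) (hc : c ∈ L ⊓ 𝒞(vV L))
    (h1 : t * y * t⁻¹ * y ∈ pCoreOf 2 L) (h2 : t * (y * c) * t⁻¹ * (y * c) ∈ pCoreOf 2 L) : c ∈ pCoreOf 2 L := by
  refine h.mem_of_sq le_rfl (c_le_oO L hc) ?_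
  have k := isKer_qmk (pCoreOf 2 L)
  have hcN := self_le_norm_core (p := 2) L hc.1
  set T' := qmk (pCoreOf 2 L) ⟨t, ht.1⟩
  set Y' := qmk (pCoreOf 2 L) ⟨y, hy.1⟩
  set C' := qmk (pCoreOf 2 L) ⟨c, hcN⟩
  have e1 : T' * Y' * T'⁻¹ * Y' = 1 := (k.eq_one (le_normalizer h1)).2 h1
  have e2 : T' * (Y' * C') * T'⁻¹ * (Y' * C') = 1 := (k.eq_one (le_normalizer h2)).2 h2
  have e3 : C' * T' * C'⁻¹ * T'⁻¹ = 1 := (k.eq_one (le_normalizer (ht.2 c hc))).2 (ht.2 c hc)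
  have e4 : C' * Y' * C'⁻¹ * Y'⁻¹ = 1 := (k.eq_one (le_normalizer (hy.2 c hc))).2 (hy.2 c hc)
  refine (k.eq_one (pow_mem hcN 2)).1 (show C' ^ 2 = 1 from ?_)
  rw [mul_inv_eq_one, mul_inv_eq_iff_eq_mul] at e3 e4
  calc C' ^ 2 = C' ^ 2 * (T' * Y' * T'⁻¹ * Y') := by rw [e1, mul_one]
    _ = T' * (Y' * C') * T'⁻¹ * (Y' * C') := by
      have a : Commute C' T' := e3
      have b : Commute C' Y' := e4
      rw [((a.mul_right b).mul_right a.inv_right).mul_right b |>.pow_left 2 |>.eq, pow_two]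
      calc _ = T' * Y' * (T'⁻¹ * Y' * C') * C' := by group
        _ = _ := by rw [← (a.inv_right.mul_right b).eq]; group
    _ = 1 := e2

theorem xX_le_cC {t : G} (ht : Tv L t) : xX L t ≤ cC L :=
  sup_le ((commutator_mono (oO_le L) (h.le_cC ht.isP (zpowers_le.2 ht.mem))).trans
    (commutator_le_of_le_norm' (le_norm_cC L))) (h.le_cC (core_isP L) (core_le L))

theorem gamma {t y : G} (ht : Tv L t) (hy : y ∈ L) (hy' : y ∈ cC L) (h1 : t * y * t⁻¹ * y ∈ pCoreOf 2 L)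
    (h2 : y ∈ xX L t ⊔ 𝒞(vV L)) (h3 : y ∉ 𝒞(vV L)) :
    xX L t = zpowers y ⊔ pCoreOf 2 L ∧ (pCoreOf 2 L).relIndex (xX L t) = 3 := by
  haveI : Fact (Nat.Prime 3) := ⟨Nat.prime_three⟩
  have hXV := (xX_le ht.mem).trans ((oO_le L).trans (nV L))
  have hc := h.card_xX ht
  have htC : t ∈ cC L := h.le_cC ht.isP (zpowers_le.2 ht.mem) (mem_zpowers t)
  have m1 := ((isKer_hψ _).apply_mem hXV (nV L hy)).2 h2
  have m2 : hψ (vV L) ⟨y, nV L hy⟩ ^ 3 = 1 := by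
    have := pow_card_eq_one' (G := him[vV L] (xX L t)) (x := ⟨_, m1⟩)
    rw [hc] at this
    exact congrArg Subtype.val this
  have m3 : him[vV L] (zpowers y) = him[vV L] (xX L t) := by
    rw [gim_zpowers (nV L hy)]
    refine eq_of_le_of_card_ge (zpowers_le.2 m1) ?_
    rw [hc, Nat.card_zpowers, orderOf_eq_prime m2 fun e => h3 (hψ_eq_one.1 e)]
  have m4 : y ^ 3 ∈ pCoreOf 2 L := by
    rw [← map_pow] at m2
    refine h.mem_q_of_inv htC (one_mem _) (mem_inf.2 ⟨pow_mem hy 3, hψ_eq_one.1 m2⟩) (by simp) ?_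
    simpa using inv_zpow_mod htC.1 hy'.1 h1 (3 : ℕ)
  have m5 : (pCoreOf 2 L).relIndex (zpowers y ⊔ pCoreOf 2 L) = 3 := by
    rw [← (isKer_qmk _).card_gim_eq (sup_le (zpowers_le.2 hy'.1) le_normalizer),
      (isKer_qmk _).gim_sup_ker (zpowers_le.2 hy'.1), gim_zpowers hy'.1, Nat.card_zpowers]
    refine orderOf_eq_prime ?_ fun e => h3 (core_le_cent_Y L (((isKer_qmk _).eq_one _).1 e))
    rw [← map_pow]
    exact ((isKer_qmk _).eq_one (pow_mem hy'.1 3)).2 m4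
  have m6 : xX L t ≤ zpowers y ⊔ pCoreOf 2 L := by
    refine sup_le (commutator_le.2 fun o ho u hu => ?_) le_sup_right
    rcases zp_two ht.sq hu with rfl | rfl
    · simp
    have k1 : ⁅o, u⁆ ∈ xX L u := mem_sup_left (commutator_mem_commutator ho hu)
    obtain ⟨_, ⟨n, rfl⟩, c, hc, e⟩ := (mem_sup_nr (zpowers_le.2 (norm_le_norm_cent _ (nV L hy)))).1
      (((isKer_hψ _).gim_le hXV (zpowers_le.2 (nV L hy))).1 m3.ge k1)
    rw [← e]
    refine mul_mem_sup (zpow_mem (mem_zpowers y) n) (h.mem_q_of_inv htC (zpow_mem hy' n) (mem_inf.2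
      ⟨(mul_mem_cancel_left (zpow_mem hy n)).1 (e ▸ oO_le L (xX_le ht.mem k1)), hc⟩)
      (inv_zpow_mod htC.1 hy'.1 h1 n) ?_)
    simp only at e
    rw [e, show u * ⁅o, u⁆ * u⁻¹ * ⁅o, u⁆ = u * o * u * o⁻¹ * (u * u)⁻¹ * o * u * o⁻¹ * u⁻¹ by
      simp only [commutatorElement_def]; group, ht.sq,
      show u * o * u * o⁻¹ * 1⁻¹ * o * u * o⁻¹ * u⁻¹ = u * o * (u * u) * o⁻¹ * u⁻¹ by group, ht.sq]
    simp
  have m7 : xX L t = zpowers y ⊔ pCoreOf 2 L :=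
    (CL.Grp.eq_or_eq_of_relIndex_prime le_sup_right m6 (m5 ▸ Nat.prime_three)).resolve_left fun e => by
      rw [((isKer_hψ _).gim_eq_bot hXV).2 (e.le.trans (core_le_cent_Y L))] at hc
      simp at hc
  exact ⟨m7, m7 ▸ m5⟩

theorem exists_y {t : G} (ht : Tv L t) : ∃ y ∈ xX L t, y ∉ 𝒞(vV L) ∧ t * y * t⁻¹ * y = 1 := by
  by_contra hn
  push Not at hn
  have hc := h.card_xX ht
  rw [((isKer_hψ _).gim_eq_bot ((xX_le ht.mem).trans ((oO_le L).trans (nV L)))).2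
    (sup_le (commutator_le.2 fun o ho u hu => ?_) (core_le_cent_Y L))] at hc
  · simp at hc
  rcases zp_two ht.sq hu with rfl | rfl
  · simp
  by_contra e
  refine hn _ (mem_sup_left (commutator_mem_commutator ho hu)) e ?_
  rw [show u * ⁅o, u⁆ * u⁻¹ * ⁅o, u⁆ = u * o * u * o⁻¹ * (u * u)⁻¹ * o * u * o⁻¹ * u⁻¹ by
      simp only [commutatorElement_def]; group, ht.sq,
      show u * o * u * o⁻¹ * 1⁻¹ * o * u * o⁻¹ * u⁻¹ = u * o * (u * u) * o⁻¹ * u⁻¹ by group, ht.sq]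
  simp

theorem idx_xX {t : G} (ht : Tv L t) : (pCoreOf 2 L).relIndex (xX L t) = 3 := by
  obtain ⟨y, h1, h2, h3⟩ := h.exists_y ht
  exact (h.gamma ht (oO_le L (xX_le ht.mem h1)) (h.xX_le_cC ht h1) (h3 ▸ one_mem _) (mem_sup_left h1) h2).2

omit h in
theorem xX_mul_le {t q : G} (ht : t ∈ L) (hq : q ∈ pCoreOf 2 L) : xX L (q * t) ≤ xX L t := by
  refine sup_le (commutator_le_of_le_cmod (zpowers_le.2 (mul_mem ?_ ?_))) le_sup_right
  · exact ⟨oO_le_norm_xX L t (c_le_oO L (q_le_c L hq)), fun o ho =>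
      mem_sup_right (comm_mem_norm (self_le_norm_core L (oO_le L ho)) hq)⟩
  · exact ⟨le_norm_sup (normalizer_commutator_ge_right _ _) (zpowers_le.2 (self_le_norm_core L ht)) (mem_zpowers t),
      fun o ho => mem_sup_left (commutator_mem_commutator ho (mem_zpowers t))⟩

omit h in
theorem mem_norm_xX {t g : G} (ht : t ∈ L) (hg : g ∈ L) (hc : ⁅t, g⁆ ∈ pCoreOf 2 L) : g ∈ 𝒩(xX L t) := by
  refine mem_norm_of_cj_le ?_
  rw [cj_xX hg, show g * t * g⁻¹ = ⁅g, t⁆ * t by simp [commutatorElement_def]]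
  exact xX_mul_le ht (comm_swap hc)

theorem tri' {s t : G} (hs : Tv L s) (ht : Tv L t) :
    (xX L s = xX L t ∧ s * t ∈ xX L t) ∨ (⁅s, t⁆ ∈ pCoreOf 2 L ∧ ⁅vV L, xX L s⁆ ⊓ ⁅vV L, xX L t⁆ = ⊥) := by
  have hsC : s ∈ cC L := h.le_cC hs.isP (zpowers_le.2 hs.mem) (mem_zpowers s)
  have htC : t ∈ cC L := h.le_cC ht.isP (zpowers_le.2 ht.mem) (mem_zpowers t)
  have is := inv_eq_of_mul_eq_one_right hs.sq
  have it := inv_eq_of_mul_eq_one_right ht.sq
  have hL := mul_mem hs.mem ht.mem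
  have e1 : t * (s * t) * t⁻¹ * (s * t) = 1 := by
    rw [show t * (s * t) * t⁻¹ * (s * t) = t * (s * s) * t by group, hs.sq, mul_one, ht.sq]
  have e2 : s * (s * t) * s⁻¹ * (s * t) = 1 := by
    rw [show s * (s * t) * s⁻¹ * (s * t) = (s * s) * (t * t) by group, hs.sq, one_mul, ht.sq]
  rcases h.tri hs ht with ⟨k1, k2⟩ | ⟨k1, k2⟩
  · left
    by_cases e : s * t ∈ 𝒞(vV L)
    · have k3 : s * t ∈ pCoreOf 2 L :=
        h.mem_q_of_inv htC (one_mem _) (mem_inf.2 ⟨hL, e⟩) (by simp) (by rw [one_mul, e1]; exact one_mem _)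
      refine ⟨le_antisymm ?_ ?_, mem_sup_right k3⟩
      · have := xX_mul_le ht.mem k3
        rwa [mul_assoc, ht.sq, mul_one] at this
      · have := xX_mul_le hs.mem (inv_mem k3)
        rwa [mul_inv_rev, inv_mul_cancel_right, it] at this
    · have k3 := (h.gamma ht hL (mul_mem hsC htC) (e1 ▸ one_mem _) k2 e).1
      have n : ∀ {u : G}, Tv L u → xX L u ≤ 𝒩(vV L) := fun hu => (xX_le hu.mem).trans ((oO_le L).trans (nV L))
      have k4 := (h.gamma hs hL (mul_mem hsC htC) (e2 ▸ one_mem _)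
        (sup_le (((isKer_hψ _).gim_le (n ht) (n hs)).1 k1.ge) le_sup_right k2) e).1
      exact ⟨k4.trans k3.symm, k3 ▸ mem_sup_left (mem_zpowers _)⟩
  · refine Or.inr ⟨h.mem_q_of_inv htC (one_mem _) (mem_inf.2 ⟨commutator_le_of_le_norm le_normalizer
      (commutator_mem_commutator hs.mem ht.mem), k1⟩) (by simp) ?_, k2⟩
    rw [one_mul, commutatorElement_def, is, show t * (s * t * s * t⁻¹) * t⁻¹ * (s * t * s * t⁻¹) =
      t * s * t * s * (t * t)⁻¹ * s * t * s * t⁻¹ by group, ht.sq,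
      show t * s * t * s * 1⁻¹ * s * t * s * t⁻¹ = t * s * t * (s * s) * t * s * t⁻¹ by group, hs.sq,
      show t * s * t * 1 * t * s * t⁻¹ = t * s * (t * t) * s * t⁻¹ by group, ht.sq, mul_one, mul_assoc t, hs.sq]
    simp

end LH

end CL.KS12
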