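/-
KS12, part D: the `J(T)`-components of a member of `𝓛(T)` (12.1.2 - 12.1.4).
-/
import Cfsg.Agent.Even.KS12.C
import Cfsg.Agent.Even.SubnSyl

set_option autoImplicit false

open Cfsg Subgroup CL.Even CL.Loc
open CL.Grp (IsSylowIn SubnIn pPrimeCoreOf)
open scoped commutatorElement

namespace CL.KS12

variable {G : Type*} [Group G] [Finite G] {T L K : Subgroup G}

/-- the component defined by the transvection `t` -/
abbrev kK (L : Subgroup G) (t : G) : Subgroup G := pResidualOf 2 (xX L t)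

/-- the subgroup generated by `O` and the transvections -/
def pP (L : Subgroup G) : Subgroup G := closure {t | Tv L t} ⊔ oO L

theorem K3.le_core_of {P : Subgroup G} (h : K3 K) (hP : IsPGroup 2 P) (hle : P ≤ K) : P ≤ pCoreOf 2 K :=
  (pClo_of_syl_le (T := pCoreOf 2 K) ⟨core_le K, core_isP K, by rw [h.idx]; decide⟩ le_rfl).le_core_of_normal
    le_rfl le_normalizer hle hP

theorem kK_le {t : G} (ht : t ∈ L) : kK L t ≤ oO L := (res_le _).trans (xX_le ht)

theorem pP_le (L : Subgroup G) : pP L ≤ L := sup_le ((closure_le _).2 fun _ ht => ht.mem) (oO_le L)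

theorem le_norm_pP (L : Subgroup G) : L ≤ 𝒩(pP L) := by
  refine le_norm_sup (le_norm_of_cj_le fun g hg => ?_) (le_norm_oO L)
  rw [MonoidHom.map_closure]
  refine closure_mono ?_
  rintro _ ⟨t, ht, rfl⟩
  exact ht.conj hg

/-- `[V, K] ≤ W_K` -/
theorem comm_v_le (h : K3 K) (hK : K ≤ L) (hn : pCoreOf 2 L ≤ 𝒩(K)) (hc : pCoreOf 2 K ≤ pCoreOf 2 L) :
    ⁅vV L, K⁆ ≤ wOf K := by
  have h1 : ⁅vV L, K⁆ ≤ vV L := commutator_le_of_le_norm (hK.trans (nV L))
  rw [← h.comm_comm (Y_elem L) (hK.trans (nV L))]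
  exact commutator_mono (le_ozc (elem_of_le (Y_elem L) h1) (h.le_core_of ((Y_isP L).to_le h1)
    (commutator_le_of_le_norm' ((Y_le_core L).trans hn)))
    (h1.trans (le_centralizer_iff.1 (hc.trans (core_le_cent_Y L))))) le_rfl

namespace LH

variable (h : LH T L)
include h

theorem k3' {t : G} (ht : Tv L t) :
    K3 (kK L t) ∧ kK L t ⊔ pCoreOf 2 L = xX L t ∧ pCoreOf 2 (kK L t) = pCoreOf 2 L ⊓ kK L t :=
  k3_res (core_isP L) le_sup_right ((xX_le ht.mem).trans ((oO_le L).trans (self_le_norm_core L))) (h.idx_xX ht)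

theorem comm_v {t : G} (ht : Tv L t) : ⁅vV L, xX L t⁆ = ⁅vV L, kK L t⁆ := by
  rw [← (h.k3' ht).2.1, commutator_sup_right_eq ((kK_le ht.mem).trans ((oO_le L).trans (nV L)))
    ((core_le L).trans (nV L)), commutator_eq_bot_iff'.2 (core_le_cent_Y L), sup_bot_eq]

theorem not_rK {t : G} (ht : Tv L t) : t ∉ rK (kK L t) := fun e => by
  obtain ⟨y, h1, h2, h3⟩ := h.exists_y ht
  have h4 : kK L t ⊔ pCoreOf 2 L ≤ cm1 t (pCoreOf 2 L) :=
    sup_le (fun k hk => ⟨self_le_norm_core L (oO_le L (kK_le ht.mem hk)),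
      ((h.k3' ht).2.2.le (comm_swap (e.2 k hk))).1⟩)
      fun q hq => ⟨le_normalizer hq, comm_mem_norm (self_le_norm_core L ht.mem) hq⟩
  have h5 := (h4 ((h.k3' ht).2.1.ge h1)).2
  rw [commutatorElement_def, eq_inv_of_mul_eq_one_left h3, ← mul_inv_rev, inv_mem_iff, ← pow_two] at h5
  exact h2 (core_le_cent_Y L (h.mem_of_sq le_rfl (xX_le ht.mem h1) h5))

theorem jc_kK {A : Subgroup G} (hA : A ∈ meaIn 2 T) {t : G} (htA : t ∈ A) (ht : Tv L t) :
    IsJComponent T (kK L t) := by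
  obtain ⟨k3, e1, e2⟩ := h.k3' ht
  have hKL := (kK_le ht.mem).trans (oO_le L)
  have hJ : 𝐉[2] T ≤ 𝒩(kK L t) := le_norm_res fun j hj =>
    mem_norm_xX ht.mem (h.j_le hj) (h.comm_j ht (meaIn_le hA htA) hj)
  have hQ : pCoreOf 2 (kK L t) ≤ pCoreOf 2 L := e2.le.trans inf_le_left
  refine mk_jc k3 (k3.comm_eq hJ fun e => h.not_rK ht (e (le_thompsonSubgroupOf hA htA)))
    (fun S hS hJS => j_eq_of_syl h.syl hS.isPGroup (hS.le.trans (sup_le hKL h.j_le)) hJS)
    (k3.card_w hA ((w_le_core _).trans (hQ.trans h.q_le)) ((le_thompsonSubgroupOf hA).trans hJ)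
      (fun e => h.not_rK ht (e htA)) fun e => ?_)
  have h1 := comm_v_le k3 hKL (((q_le_c L).trans (c_le_oO L)).trans (le_norm_res (oO_le_norm_xX L t))) hQ
  rw [e, le_bot_iff, ← h.comm_v ht, commutator_eq_bot_iff'] at h1
  obtain ⟨y, h2, h3, -⟩ := h.exists_y ht
  exact h3 (h1 h2)

theorem comm_pP : ⁅pP L, pP L⁆ ≤ oO L := by
  refine commutator_le_of_le_cmod (sup_le ((closure_le _).2 fun s hs => ⟨le_norm_oO L hs.mem, fun v hv => ?_⟩)
    (le_cmod le_normalizer (commutator_le_of_le_norm' ((pP_le L).trans (le_norm_oO L)))))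
  have : pP L ≤ cm1 s (oO L) := sup_le ((closure_le _).2 fun t ht => ⟨le_norm_oO L ht.mem, h.comm_mem_oO hs ht⟩)
    fun o ho => ⟨le_normalizer ho, comm_mem_norm (le_norm_oO L hs.mem) ho⟩
  exact comm_swap (this hv).2

theorem res_pP : pResidualOf 2 (pP L) ≤ oO L := by
  refine res_le_of_pow fun x hx => ⟨1, ?_⟩
  let Y : Subgroup G :=
    { carrier := {x | x ∈ pP L ∧ x * x ∈ oO L}
      one_mem' := ⟨one_mem _, by simp⟩
      mul_mem' := by
        rintro a b ⟨ha, ha'⟩ ⟨hb, hb'⟩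
        refine ⟨mul_mem ha hb, ?_⟩
        rw [show a * b * (a * b) = ⁅a, b⁆ * (b * (a * a) * b⁻¹) * (b * b) by simp only [commutatorElement_def]; group]
        exact mul_mem (mul_mem (h.comm_pP (commutator_mem_commutator ha hb))
          (conj_mem (le_norm_oO L (pP_le L hb)) ha')) hb'
      inv_mem' := by
        rintro a ⟨ha, ha'⟩
        exact ⟨inv_mem ha, by rw [← mul_inv_rev]; exact inv_mem ha'⟩ }
  have : pP L ≤ Y := sup_le ((closure_le _).2 fun t ht => ⟨mem_sup_left (subset_closure ht), ht.sq ▸ one_mem _⟩)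
    fun o ho => ⟨mem_sup_right ho, mul_mem ho ho⟩
  rw [pow_one, pow_two]
  exact (this hx).2

theorem j_le_pP : 𝐉[2] T ≤ pP L :=
  h.gen_j (inf_le_right.trans ((q_le_c L).trans ((c_le_oO L).trans le_sup_right)))
    fun _ _ _ _ ht => mem_sup_left (subset_closure ht)

theorem fratt {N H : Subgroup G} (hJ : 𝐉[2] T ≤ N) (hN : N ≤ H) (hH : H ≤ L) (hn : H ≤ 𝒩(N)) :
    ∃ S, IsSylowIn 2 S N ∧ S ≤ L ⊓ 𝒩(𝐉[2] T) ∧ H ≤ (L ⊓ 𝒩(𝐉[2] T)) ⊔ N := by
  obtain ⟨S, hS, hle⟩ := CL.Grp.exists_isSylowIn_ge (j_isP h.syl.isPGroup) hJ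
  have h1 : 𝒩(S) ≤ 𝒩(𝐉[2] T) := by
    rw [← j_eq_of_syl h.syl hS.isPGroup (hS.le.trans (hN.trans hH)) hle]; exact le_norm_thom le_rfl
  exact ⟨S, hS, le_inf (hS.le.trans (hN.trans hH)) (le_normalizer.trans h1),
    (frattini_sup hS hN hn).ge.trans (sup_le_sup_right (inf_le_inf hH h1) _)⟩

theorem le_oO_sup : L ≤ oO L ⊔ (L ⊓ 𝒩(𝐉[2] T)) := by
  obtain ⟨S, hS, h1, h2⟩ := h.fratt h.j_le_pP (pP_le L) le_rfl (le_norm_pP L)
  exact h2.trans (sup_le le_sup_right (le_of_syl_of_res hS (h1.trans le_sup_right) (h.res_pP.trans le_sup_left)))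

section comp
variable (hK : IsJComponent T K) (hKL : K ≤ L)
include hK hKL

theorem le_oO : K ≤ oO L := by
  have h1 : K ≤ pP L := (JC.comm hK).ge.trans ((commutator_mono hKL h.j_le_pP).trans
    (commutator_le_of_le_norm' (le_norm_pP L)))
  exact (JC.comm hK).ge.trans ((commutator_mono h1 h.j_le_pP).trans h.comm_pP)

theorem core_le_q : pCoreOf 2 K ≤ pCoreOf 2 L := h.le_q (core_isP K) ((core_le K).trans (h.le_oO hK hKL))

theorem q_le_norm : pCoreOf 2 L ≤ 𝒩(K) :=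
  JC.le_norm hK h.syl.isPGroup (hKL.trans (self_le_norm_core L))
    (h.q_le.trans (le_normalizer_thompsonSubgroupOf T))

theorem comp_le_cC : K ≤ cC L :=
  (JC.comm hK).ge.trans ((commutator_mono hKL (h.le_cC (j_isP h.syl.isPGroup) h.j_le)).trans
    (commutator_le_of_le_norm' (le_norm_cC L)))

theorem exists_tv : ∃ A ∈ meaIn 2 T, ∃ t ∈ A, Tv L t ∧ kK L t = K := by
  have k3 := JC.k3 hK
  by_contra hn
  push Not at hn
  refine JC.not_le_rK hK (h.gen_j (le_cmod (inf_le_left.trans (le_norm_core (JC.jn hK))) (k3.le_core_of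
    ((core_isP L).to_le ((commutator_mono hKL inf_le_right).trans (commutator_le_of_le_norm' (self_le_norm_core L))))
    (commutator_le_of_le_norm (inf_le_left.trans (JC.jn hK))))) fun A hA t htA ht => by_contra fun hr => ?_)
  have htn : t ∈ 𝒩(K) := JC.jn hK (le_thompsonSubgroupOf hA htA)
  obtain ⟨x, hx, hx', -⟩ := k3.exists_x
  obtain ⟨hy, hy'⟩ := k3.comm_not_mem hx hx' htn hr
  have h1 := conj_mem' (self_le_norm_core K hy) (k3.inverts hy hy' htn hr)
  rw [inv_mul_cancel_left] at h1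
  have h2 := (h.gamma ht (hKL hy) (h.comp_le_cC hK hKL hy) (h.core_le_q hK hKL h1)
    (mem_sup_left (mem_sup_left (commutator_mem_commutator (h.le_oO hK hKL hx) (mem_zpowers t)))) fun e =>
      hr ((k3.mem_rK hy hy' htn).2 (k3.le_core_of ((core_isP L).to_le (zpowers_le.2
        ((h.le_cC ht.isP (zpowers_le.2 ht.mem) (mem_zpowers t)).2 _ (mem_inf.2 ⟨hKL hy, e⟩))))
        (zpowers_le.2 (comm_swap (comm_mem_norm htn hy))) (mem_zpowers _)))).1
  refine hn A hA t htA ht ?_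
  have h3 : xX L t = pCoreOf 2 L ⊔ K := by
    rw [h2, ← k3.sup_zp hy hy', ← sup_assoc, sup_eq_left.2 (h.core_le_q hK hKL), sup_comm]
  rw [kK, h3, res_sup_eq_of_isPGroup (core_isP L) (h.q_le_norm hK hKL), k3.res]

theorem oO_le_norm : oO L ≤ 𝒩(K) := by
  obtain ⟨A, -, t, -, -, rfl⟩ := h.exists_tv hK hKL
  exact le_norm_res (oO_le_norm_xX L t)

/-- 12.1.2 -/
theorem subn : SubnIn K L :=
  (SubnIn.of_le_normalizer (h.le_oO hK hKL) (h.oO_le_norm hK hKL)).trans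
    (SubnIn.of_le_normalizer (oO_le L) (le_norm_oO L))

theorem w_eq : wOf K = ⁅vV L, K⁆ := by
  refine ((JC.k3 hK).eq_w (JC.card hK) (comm_v_le (JC.k3 hK) hKL (h.q_le_norm hK hKL) (h.core_le_q hK hKL))
    (normalizer_commutator_ge_right _ _) fun e => ?_).symm
  obtain ⟨A, -, t, -, ht, rfl⟩ := h.exists_tv hK hKL
  rw [← h.comm_v ht, commutator_eq_bot_iff'] at e
  obtain ⟨y, h2, h3, -⟩ := h.exists_y ht
  exact h3 (e h2)

theorem w_le_v : wOf K ≤ vV L := (h.w_eq hK hKL).le.trans (commutator_le_of_le_norm (hKL.trans (nV L)))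

theorem eq_of_w {K' : Subgroup G} (hK' : IsJComponent T K') (hKL' : K' ≤ L) (hw : wOf K ⊓ wOf K' ≠ ⊥) :
    K = K' := by
  rw [h.w_eq hK hKL, h.w_eq hK' hKL'] at hw
  obtain ⟨A, -, t, -, ht, rfl⟩ := h.exists_tv hK hKL
  obtain ⟨A', -, t', -, ht', rfl⟩ := h.exists_tv hK' hKL'
  rw [← h.comm_v ht, ← h.comm_v ht'] at hw
  rw [kK, kK, ((h.tri' ht ht').resolve_right fun e => hw e.2).1]

/-- an element of `L` fixing a nonidentity element of `W_K` normalises `K` -/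
theorem mem_norm {g : G} (hg : g ∈ L) (hw : wOf K ⊓ cj g (wOf K) ≠ ⊥) : g ∈ 𝒩(K) := by
  obtain ⟨o, ho, n, hn, rfl⟩ := (mem_sup_nl (inf_le_left.trans (le_norm_oO L))).1 (h.le_oO_sup hg)
  have h1 := JC.conj_of_norm hK hn.2
  have h2 : cj n K ≤ L := cj_le_of_mem hKL hn.1
  rw [cj_mul, cj_w, cj_eq (norm_le_norm_w _ (h.oO_le_norm h1 h2 ho))] at hw
  exact mul_mem (h.oO_le_norm hK hKL ho) (cj_eq_iff_mem.1 (h.eq_of_w hK hKL h1 h2 hw).symm)

theorem exists_conj {g : G} (hg : g ∈ L) : IsJComponent T (cj g K) := by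
  obtain ⟨o, ho, n, hn, rfl⟩ := (mem_sup_nl (inf_le_left.trans (le_norm_oO L))).1 (h.le_oO_sup hg)
  have h1 := JC.conj_of_norm hK hn.2
  rwa [cj_mul, cj_eq (h.oO_le_norm h1 (cj_le_of_mem hKL hn.1) ho)]

end comp

/-- `L` is generated by its components and the normaliser of `J(T)` -/
theorem le_of_comp {Y : Subgroup G} (h1 : ∀ K, IsJComponent T K → K ≤ L → K ≤ Y) (h2 : L ⊓ 𝒩(𝐉[2] T) ≤ Y) :
    L ≤ Y := by
  set D := sSup {K | IsJComponent T K ∧ K ≤ L} ⊔ pCoreOf 2 L with hD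
  have hDO : D ≤ oO L := sup_le (sSup_le fun K hK => h.le_oO hK.1 hK.2) ((q_le_c L).trans (c_le_oO L))
  have hOD : oO L ≤ 𝒩(D) := by
    refine le_norm_sup ?_ ((oO_le L).trans (self_le_norm_core L))
    rw [sSup_eq_iSup']
    exact le_norm_iSup fun K => h.oO_le_norm K.2.1 K.2.2
  have hJD : 𝐉[2] T ≤ 𝒩(D) := by
    refine le_norm_sup ?_ (h.j_le.trans (self_le_norm_core L))
    rw [sSup_eq_iSup']
    exact le_norm_iSup fun K => JC.jn K.2.1
  have h3 : 𝐉[2] T ≤ cmod (oO L) D := h.gen_j (le_cmod (inf_le_left.trans hJD)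
    (((commutator_mono (oO_le L) inf_le_right).trans (commutator_le_of_le_norm' (self_le_norm_core L))).trans
      le_sup_right)) fun A hA t htA ht => ⟨hJD (le_thompsonSubgroupOf hA htA), fun o ho =>
        (show kK L t ⊔ pCoreOf 2 L ≤ D from
          sup_le_sup_right (le_sSup (by exact ⟨h.jc_kK hA htA ht, (kK_le ht.mem).trans (oO_le L)⟩)) _) ((h.k3' ht).2.1.ge
          (mem_sup_left (commutator_mem_commutator ho (mem_zpowers t))))⟩
  have h4 : oO L ⊔ 𝐉[2] T ≤ 𝒩(D ⊔ 𝐉[2] T) := sup_le (le_norm_of_commutator_le (commutator_sup_le'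
    (le_norm_of_le le_sup_left) (le_norm_of_le le_sup_right) ((commutator_le_of_le_norm hOD).trans le_sup_left)
    (by rw [commutator_comm]; exact (commutator_le_of_le_cmod h3).trans le_sup_left))) (le_norm_of_le le_sup_right)
  obtain ⟨S, -, -, h5⟩ := h.fratt le_sup_right (sup_le_sup_right hDO _) (sup_le (oO_le L) h.j_le) h4
  have h6 : pCoreOf 2 L ≤ Y := (le_inf (core_le L) (h.q_le.trans (le_normalizer_thompsonSubgroupOf T))).trans h2
  exact h.le_oO_sup.trans (sup_le (le_sup_left.trans (h5.trans (sup_le h2 (sup_le (sup_le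
    (sSup_le fun K hK => h1 K hK.1 hK.2) h6) ((le_inf h.j_le le_normalizer).trans h2))))) h2)

end LH

end CL.KS12
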