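/-
KS12, part E: the global hypothesis, 12.1.4.
-/
import Cfsg.Agent.Even.KS12.D

set_option autoImplicit false

open Cfsg Subgroup CL.Even CL.Loc
open CL.Grp (IsSylowIn SubnIn pPrimeCoreOf)
open scoped commutatorElement

namespace CL.KS12

variable {G : Type*} [Group G] [Finite G] {T L K : Subgroup G}

theorem fpf_four {W : Subgroup G} (hW : IsElementaryAbelian 2 W) (h4 : Nat.card W = 4) {x : G}
    (ho : (orderOf x).Coprime 2) (hn : x ∈ 𝒩(W)) (hc : x ∉ 𝒞(W)) : W ⊓ 𝒞(zpowers x) = ⊥ := by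
  have h1 := CL.NGrp.cz_inf_comm (elem_isP hW) (elem_le_cent hW) ho hn
  have h2 : ⁅W, zpowers x⁆ ≤ W := commutator_le_of_le_norm (zpowers_le.2 hn)
  have h3 := CL.NGrp.four_le_card ((elem_isP hW).to_le h2) (normalizer_commutator_ge_right _ _ (mem_zpowers x)) h1
    fun e => hc (zpowers_le.1 (commutator_eq_bot_iff'.1 e))
  rwa [eq_of_le_of_card_ge h2 (h4 ▸ h3)] at h1

theorem LH.j_le_norm_w (h : LH T L) (k3 : K3 K) (h4 : Nat.card (wOf K) = 4) (hKL : K ≤ L)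
    (hs : SubnIn K (K ⊔ 𝐉[2] T)) : 𝐉[2] T ≤ 𝒩(wOf K) := by
  set H := K ⊔ 𝐉[2] T with hH
  set R := pCoreOf 2 H with hR
  have hHL : H ≤ L := sup_le hKL h.j_le
  have hRK : R ≤ 𝒩(K) := by have := core_le_norm_res (p := 2) hs; rwa [k3.res] at this
  have hUR : pCoreOf 2 K ≤ R := core_le_core_of_subnIn hs
  have hQR : pCoreOf 2 L ⊓ H ≤ R := core_inf_le (hHL.trans (self_le_norm_core L))
  refine h.gen_j ((le_inf inf_le_right (inf_le_left.trans le_sup_right)).trans (hQR.trans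
    (hRK.trans (norm_le_norm_w K)))) fun A hA t htA ht => ?_
  by_cases htK : t ∈ 𝒩(K)
  · exact norm_le_norm_w K htK
  have htJ := le_thompsonSubgroupOf hA htA
  have htH : t ∈ H := mem_sup_right htJ
  have it := inv_eq_of_mul_eq_one_right ht.sq
  have key : ∀ x ∈ K, x ∉ pCoreOf 2 K →
      x ∈ 𝒩(xX L t) ∧ ⁅x, t⁆ ∈ xX L t ∧ ⁅x, t⁆ ∉ pCoreOf 2 L := by
    intro x hx hx'
    have k1 : ¬ IsPGroup 2 (zpowers ⁅x, t⁆) := fun e => htK (by
      have m1 : ⁅x, t⁆ ∈ K ⊔ cj t K := by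
        rw [commutatorElement_def, mul_assoc, mul_assoc, ← mul_assoc t]
        exact mul_mem_sup hx (conj_mem_cj t (inv_mem hx))
      have s2 : SubnIn (cj t K) H := hs.conj htH
      obtain ⟨S, hS, hle⟩ := CL.Grp.exists_isSylowIn_ge e (zpowers_le.2 (sup_le hs.le s2.le m1))
      have m2 : ⁅x, t⁆ ∈ R := sup_le ((k3.le_core_of (hS.isPGroup.to_le inf_le_right) inf_le_left).trans hUR)
        (((k3.conj t).le_core_of (hS.isPGroup.to_le inf_le_right) inf_le_left).trans (core_le_core_of_subnIn s2))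
        ((sup_inf_syl_eq hS hs s2).le (mem_inf.2 ⟨m1, hle (mem_zpowers _)⟩))
      have m3 : t ∈ 𝒩(R ⊔ K) := by
        rw [← k3.sup_zp hx hx', ← sup_assoc, sup_eq_left.2 hUR]
        refine mem_norm_of_cj_le ?_
        rw [cj_sup, cj_eq (self_le_norm_core H htH), MonoidHom.map_zpowers]
        refine sup_le le_sup_left (zpowers_le.2 ?_)
        show t * x * t⁻¹ ∈ _
        rw [show t * x * t⁻¹ = ⁅t, x⁆ * x by simp [commutatorElement_def]]
        exact mul_mem_sup (comm_swap m2) (mem_zpowers x)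
      have := norm_le_norm_res (p := 2) _ m3
      rwa [res_sup_eq_of_isPGroup (core_isP H) hRK, k3.res] at this)
    have e1 : x * t * x⁻¹ * t = ⁅x, t⁆ := by rw [commutatorElement_def, it]
    rcases h.tri' (ht.conj (hKL hx)) ht with ⟨k2, k4⟩ | ⟨k2, -⟩
    · exact ⟨cj_eq_iff_mem.1 (by rw [cj_xX (hKL hx), k2]), e1 ▸ k4,
        fun e => k1 ((core_isP L).to_le (zpowers_le.2 e))⟩
    · refine absurd ?_ k1
      rw [commutatorElement_def, inv_eq_of_mul_eq_one_right (ht.conj (hKL hx)).sq, it, mul_assoc, e1,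
        ← pow_two] at k2
      obtain ⟨k, hk⟩ := isPGroup_iff_forall.1 (core_isP (p := 2) L) _ k2
      exact isPGroup_zpowers (k := k + 1) (by rw [pow_succ', pow_mul, hk])
  obtain ⟨x, hx, hx', ho⟩ := k3.exists_x
  have hKX : K ≤ 𝒩(xX L t) := fun k hk => by
    by_cases e : k ∈ pCoreOf 2 K
    · rw [← mul_mem_cancel_left (key x hx hx').1]
      exact (key _ (mul_mem hx hk) (by rwa [mul_mem_cancel_right e])).1
    · exact (key k hk e).1
  have jc := h.jc_kK hA htA ht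
  obtain ⟨k3', e1, e2⟩ := h.k3' ht
  set W := wOf (kK L t) with hW
  have hKW : K ≤ 𝒩(W) := (le_norm_res hKX).trans (norm_le_norm_w _)
  have hJW : 𝐉[2] T ≤ 𝒩(W) := (JC.jn jc).trans (norm_le_norm_w _)
  have hWe := w_elem (kK L t)
  have hWR : W ≤ R := le_core ((JC.w_le_j jc h.syl.isPGroup).trans le_sup_right) (elem_isP hWe) (sup_le hKW hJW)
  have hxW : x ∉ 𝒞(W) := fun e => by
    obtain ⟨-, k1, k2⟩ := key x hx hx'
    have m1 : ⁅x, t⁆ ∈ 𝒞(W) := comm_swap (comm_mem_norm (norm_le_norm_cent _ (hJW htJ)) e)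
    have m2 := (CL.Grp.eq_or_eq_of_relIndex_prime le_sup_left (sup_le le_sup_right (zpowers_le.2 k1))
      (h.idx_xX ht ▸ Nat.prime_three)).resolve_left fun e => k2 (e.le (mem_sup_right (mem_zpowers _)))
    have m3 : xX L t ≤ 𝒞(W) := m2.ge.trans (sup_le ((core_le_cent_Y L).trans (cent_mono
      (h.w_le_v jc ((kK_le ht.mem).trans (oO_le L))))) (zpowers_le.2 m1))
    exact JC.w_ne jc (by rw [eq_bot_iff, ← k3'.w_inf_cent]; exact le_inf le_rfl (le_centralizer_iff.1 ((res_le _).trans m3)))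
  have f := fpf_four hWe (JC.card jc) ho (hKW hx) hxW
  have m1 := CL.NGrp.le_comm_of_fpf (elem_isP hWe) ho (hKW hx) f
  have m2 : W ≤ pCoreOf 2 K := k3.le_core_of (elem_isP hWe) (m1.ge.trans
    ((commutator_mono (hWR.trans hRK) (zpowers_le.2 hx)).trans (commutator_le_of_le_norm' le_rfl)))
  have m3 : W ⊓ 𝒞(pCoreOf 2 K) = W := eq_of_le_of_card_ge inf_le_left (JC.card jc ▸ CL.NGrp.four_le_card
    ((elem_isP hWe).to_le inf_le_left) (le_norm_inf hKW (le_norm_cent (self_le_norm_core K)) hx)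
    (by rw [eq_bot_iff, ← f]; exact inf_le_inf_right _ inf_le_left)
    (inf_cent_ne_bot (elem_isP hWe) (core_isP K) ((core_le K).trans hKW) (JC.w_ne jc)))
  have m4 : W ≤ wOf K := m1.ge.trans (commutator_mono (le_ozc hWe m2 (m3.ge.trans inf_le_right)) (zpowers_le.2 hx))
  rw [← eq_of_le_of_card_ge m4 (by rw [h4, JC.card jc])]
  exact hJW htJ

/-- the global hypothesis -/
structure ZN (G : Type*) [Group G] : Prop where
  chr : IsCharacteristicTwoType G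
  sol : ∀ N : Subgroup G, IsTwoLocal N → Group.IsSolvable N
  hz : ∀ S : Sylow 2 G, 𝒞(omegaCenterOf (S : Subgroup G)) ≤ 𝒩((S : Subgroup G))

omit [Finite G] in
theorem loc_norm {Q : Subgroup G} (hQ : IsPGroup 2 Q) (h0 : Q ≠ ⊥) : IsTwoLocal 𝒩(Q) := ⟨Q, hQ, h0, rfl⟩

omit [Finite G] in
theorem loc_core_ne (hL : IsTwoLocal L) : pCoreOf 2 L ≠ ⊥ := by
  obtain ⟨Q, hQ, h0, rfl⟩ := hL
  exact fun e => h0 (le_bot_iff.1 (e ▸ le_core le_normalizer hQ le_rfl))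

omit [Finite G] in
theorem max_eq (hL : IsMaximalTwoLocal L) {X : Subgroup G} (hX : IsPGroup 2 X) (h0 : X ≠ ⊥) (hn : L ≤ 𝒩(X)) :
    𝒩(X) = L := hL.2 _ (loc_norm hX h0) hn

omit [Finite G] in
theorem max_norm_core (hL : IsMaximalTwoLocal L) : 𝒩(pCoreOf 2 L) = L :=
  max_eq hL (core_isP L) (loc_core_ne hL.1) (self_le_norm_core L)

omit [Finite G] in
theorem loc_cj (hL : IsTwoLocal L) (g : G) : IsTwoLocal (cj g L) := by
  obtain ⟨Q, hQ, h0, rfl⟩ := hL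
  exact ⟨cj g Q, isPGroup_cj hQ g, by rwa [Ne, cj_eq_bot], cj_norm g Q⟩

omit [Finite G] in
theorem max_cj (hL : IsMaximalTwoLocal L) (g : G) : IsMaximalTwoLocal (cj g L) :=
  ⟨loc_cj hL.1 g, fun N hN hle => by rw [← hL.2 _ (loc_cj hN g⁻¹) (cj_le_iff.1 hle), cj_cj_inv]⟩

namespace ZN

variable (z : ZN G)
include z

omit [Finite G] in
theorem cent_le (hL : IsTwoLocal L) : 𝒞(pCoreOf 2 L) ≤ pCoreOf 2 L := by
  obtain ⟨Q, hQ, h0, rfl⟩ := hL
  exact (isCharP_iff.2 (z.chr.2 Q hQ h0)).le_core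
    ((cent_mono (le_core le_normalizer hQ le_rfl)).trans (cent_le_norm Q)) le_rfl

theorem hz' {S : Subgroup G} (hS : IsSylowIn 2 S ⊤) : 𝒞(𝛀[2] S) ≤ 𝒩(S) := by
  obtain ⟨P, rfl⟩ := CL.Grp.isSylowIn_top_iff.1 hS
  exact z.hz P

theorem syl_ne {S : Subgroup G} (hS : IsSylowIn 2 S ⊤) : S ≠ ⊥ := fun e => hS.not_dvd (by
  rw [e, relIndex_bot_left, card_top]; exact even_iff_two_dvd.1 z.chr.1)

omit z in
theorem om_le (hT : IsSylowIn 2 T L) (hc : 𝒞(pCoreOf 2 L) ≤ pCoreOf 2 L) {S : Subgroup G} (hle : T ≤ S) :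
    𝛀[2] S ≤ 𝛀[2] T :=
  le_ozc (ozc_elem _) (((ozc_le_cent _).trans (cent_mono ((core_le_syl hT).trans hle))).trans
    (hc.trans (core_le_syl hT))) ((ozc_le_cent _).trans (cent_mono hle))

theorem lh (hT : IsSylowIn 2 T L) (hc : 𝒞(pCoreOf 2 L) ≤ pCoreOf 2 L) : LH T L := by
  obtain ⟨S, hS, hle⟩ := CL.Grp.exists_isSylowIn_ge hT.isPGroup le_top
  have h0 : pCoreOf 2 L ≠ ⊥ := fun e => z.syl_ne hS (by
    rw [e] at hc; exact le_bot_iff.1 fun x _ => hc fun y hy => by rw [mem_bot.1 hy]; simp)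
  refine ⟨hT, CL.Grp.isSolvable_of_le_of_isSolvable (z.sol _ (loc_norm (core_isP L) h0)) (self_le_norm_core L),
    inf_le_right.trans hc, ?_⟩
  rw [← hT.eq_of_le (hS.isPGroup.to_le inf_le_left) (le_inf hle hT.le) inf_le_right]
  refine le_norm_inf (inf_le_right.trans ((cent_mono ?_).trans (z.hz' hS))) (inf_le_left.trans le_normalizer)
  rw [hT.eq_of_le (hS.isPGroup.to_le inf_le_left) (le_inf hle hT.le) inf_le_right]
  exact om_le hT hc hle

theorem lh_of (hL : L ∈ jOvergroups T) : LH T L := z.lh (sylTwo_iff.1 hL.1) hL.2.2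

theorem lh_loc (hL : IsTwoLocal L) (hT : IsSylowIn 2 T L) : LH T L := z.lh hT (z.cent_le hL)

theorem zero_lh (hT : IsPGroup 2 T) (hK : K ∈ jComponentsZero T) :
    ∃ T₀, LH T₀ 𝒩(wOf K) ∧ 𝐉[2] T₀ = 𝐉[2] T := by
  obtain ⟨T₀, h1, h2⟩ := CL.Grp.exists_isSylowIn_ge (j_isP hT) ((JC.jn hK.1).trans (norm_le_norm_w K))
  exact ⟨T₀, z.lh_loc (loc_norm (elem_isP (w_elem K)) (JC.w_ne hK.1)) h1, hK.2 T₀ h2 (sylTwo_iff.2 h1)⟩

/-- 12.1.4 (a) -/
theorem norm_w (hT : IsPGroup 2 T) (hK : K ∈ jComponentsZero T) : 𝒩(K) = 𝒩(wOf K) := by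
  obtain ⟨T₀, h, e⟩ := z.zero_lh hT hK
  exact le_antisymm (norm_le_norm_w K) fun g hg => h.mem_norm (JC.congr hK.1 e)
    (le_normalizer.trans (norm_le_norm_w K)) hg (by rw [cj_eq hg, inf_idem]; exact JC.w_ne hK.1)

theorem jc_conj (hT : IsPGroup 2 T) (hK : K ∈ jComponentsZero T) {g : G} (hg : 𝐉[2] (cj g T) ≤ 𝒩(wOf K)) :
    IsJComponent (cj g T) K := by
  obtain ⟨T₀, h, e⟩ := z.zero_lh hT hK
  obtain ⟨l, hl, h1⟩ := syl_conj_le h.syl (j_isP (isPGroup_cj hT g)) hg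
  obtain ⟨A, hA⟩ := exists_mem_meaIn 2 T
  have hA0 : A ∈ meaIn 2 T₀ := by
    rw [← meaIn_eq_of_le le_rfl (thompsonSubgroupOf_le T₀), e, meaIn_eq_of_le le_rfl (thompsonSubgroupOf_le T)]
    exact hA
  have h2 := mea_cj (mea_cj hA g) l
  have h3 := (cj_mono l (le_thompsonSubgroupOf (mea_cj hA g)))
  have h4 := thompsonSubgroupOf_mono_of_mem (mem_meaIn_of_card_le hA0 (h3.trans h1) (meaIn_ea h2)
    (by rw [card_cj, card_cj])) h3 h1
  rw [← cj_thom, thompsonSubgroupOf_thompsonSubgroupOf, e] at h4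
  have h5 := eq_of_le_of_card_ge h4 (by rw [card_cj, ← cj_thom, card_cj])
  have h6 := JC.conj hK.1 l⁻¹
  rw [cj_eq (inv_mem ((z.norm_w hT hK).ge hl))] at h6
  exact JC.congr h6 (by rw [← cj_thom l⁻¹, ← h5, cj_inv_cj])

end ZN

end CL.KS12
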