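/-
KS12, part F: maximal straddling 2-subgroups (12.2.1 - 12.2.3).
-/
import Cfsg.Agent.Even.KS12.E

set_option autoImplicit false

open Cfsg Subgroup CL.Even CL.Loc
open CL.Grp (IsSylowIn SubnIn pPrimeCoreOf)
open scoped commutatorElement

namespace CL.KS12

variable {G : Type*} [Group G] [Finite G] {S M T L K : Subgroup G}

theorem exists_max (hL : IsTwoLocal L) : ∃ U : Subgroup G, IsMaximalTwoLocal U ∧ L ≤ U := by
  obtain ⟨U, h1, h2⟩ := (Set.toFinite {M : Subgroup G | IsTwoLocal M}).exists_le_maximal hL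
  exact ⟨U, ⟨h2.1, fun K hK hle => le_antisymm (h2.2 hK hle) hle⟩, h1⟩

theorem mea_ord {A : Subgroup G} (hA : A ∈ meaIn 2 T) : maxElemAbelianOrder T = Nat.card A := by
  have h1 : A.subgroupOf T ∈ maxElementaryAbelianSubgroups 2 T :=
    ⟨elem_subgroupOf (meaIn_ea hA) T, fun B hB => by
      rw [Nat.card_congr (subgroupOfEquivOfLe (meaIn_le hA)).toEquiv,
        ← card_map_of_injective (K := B) T.subtype_injective]
      exact meaIn_card_le hA (map_subtype_le B) (elem_map _ hB)⟩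
  have h2 : (fun A : Subgroup T => Nat.card A) '' maxElementaryAbelianSubgroups 2 T = {Nat.card A} := by
    refine Set.eq_singleton_iff_unique_mem.2 ⟨⟨_, h1, Nat.card_congr (subgroupOfEquivOfLe (meaIn_le hA)).toEquiv⟩, ?_⟩
    rintro _ ⟨B, hB, rfl⟩
    rw [← Nat.card_congr (subgroupOfEquivOfLe (meaIn_le hA)).toEquiv]
    exact le_antisymm (h1.2 B hB.1) (hB.2 _ h1.1)
  rw [maxElemAbelianOrder, h2, csSup_singleton]

theorem eq_of_norm_le {P X : Subgroup G} (hP : IsPGroup 2 P) (hle : X ≤ P) (h : P ⊓ 𝒩(X) ≤ X) : X = P :=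
  hle.eq_or_lt.resolve_right fun e => (CL.Grp.lt_inf_normalizer_of_isPGroup hP e).not_ge h

theorem mx_le (hT : T ∈ maxStraddlingTwoSubgroups M) {T' : Subgroup G} (hT' : T' ∈ straddlingTwoSubgroups M)
    (hJ : 𝐉[2] T ≤ T') : 𝐉[2] T' = 𝐉[2] T ∧ Nat.card T' ≤ Nat.card T := by
  obtain ⟨A, hA⟩ := exists_mem_meaIn 2 T
  obtain ⟨A', hA'⟩ := exists_mem_meaIn 2 T'
  obtain ⟨h1, h2⟩ := hT.2 T' hT'
  rw [mea_ord hA, mea_ord hA'] at h1 h2
  have hAT := (le_thompsonSubgroupOf hA).trans hJ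
  obtain ⟨h3, h4⟩ := h2 (le_antisymm h1 (meaIn_card_le hA' hAT (meaIn_ea hA)))
  have h5 := thompsonSubgroupOf_mono_of_mem (mem_meaIn_of_card_le hA' hAT (meaIn_ea hA) h1)
    (le_thompsonSubgroupOf hA) hJ
  rw [thompsonSubgroupOf_thompsonSubgroupOf] at h5
  have h6 := (eq_of_le_of_card_ge h5 h3).symm
  exact ⟨h6, h4 (by rw [h6])⟩

theorem mx_of_syl (hS : IsSylowIn 2 T ⊤) (hT : T ∈ straddlingTwoSubgroups M) : T ∈ maxStraddlingTwoSubgroups M := by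
  refine ⟨hT, fun T' hT' => ?_⟩
  obtain ⟨g, -, h1⟩ := syl_conj_le hS hT'.1 le_top
  obtain ⟨A, hA⟩ := exists_mem_meaIn 2 T
  obtain ⟨A', hA'⟩ := exists_mem_meaIn 2 T'
  have h2 := mea_cj hA' g
  rw [mea_ord hA, mea_ord hA', ← card_cj g A', ← card_cj g (𝐉[2] T'), cj_thom]
  exact ⟨meaIn_card_le hA ((meaIn_le h2).trans h1) (meaIn_ea h2), fun e => ⟨card_le_of_le
    (thompsonSubgroupOf_mono_of_mem (mem_meaIn_of_card_le hA ((meaIn_le h2).trans h1) (meaIn_ea h2) e.ge)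
      (meaIn_le h2) h1), fun _ => hS.card_le hT'.1 le_top⟩⟩

theorem exists_mx (h : (straddlingTwoSubgroups M).Nonempty) : (maxStraddlingTwoSubgroups M).Nonempty := by
  obtain ⟨T, hT, h1⟩ := Set.exists_max_image _ (fun T : Subgroup G =>
    toLex (maxElemAbelianOrder T, toLex (Nat.card (𝐉[2] T), Nat.card T))) (Set.toFinite _) h
  refine ⟨T, hT, fun T' hT' => ?_⟩
  have := h1 T' hT'
  simp only [Prod.Lex.toLex_le_toLex, Prod.Lex.toLex_le_toLex] at this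
  omega

/-- `L` is the unique maximal 2-local subgroup containing `K J(T)` and `T` is Sylow in `L` -/
structure Uq (T K L : Subgroup G) : Prop where
  jc : IsJComponent T K
  mx : IsMaximalTwoLocal L
  le : K ≤ L
  syl : IsSylowIn 2 T L
  uq : ∀ U, IsTwoLocal U → K ≤ U → 𝐉[2] T ≤ U → U ≤ L

theorem Uq.conj (u : Uq T K L) (g : G) : Uq (cj g T) (cj g K) (cj g L) :=
  ⟨JC.conj u.jc g, max_cj u.mx g, cj_mono g u.le, syl_cj u.syl g, fun U hU h1 h2 => le_cj_iff.2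
    (u.uq _ (loc_cj hU g⁻¹) (cj_le_iff.1 h1) (cj_le_iff.1 (by rwa [cj_thom])))⟩

/-- the hypothesis of 12.2 -/
structure HM (S M T : Subgroup G) : Prop where
  z : ZN G
  syl : IsSylowIn 2 S ⊤
  loc : IsTwoLocal M
  nj : 𝒩(𝐉[2] S) ≤ M
  mx : T ∈ maxStraddlingTwoSubgroups M

namespace HM

variable (h : HM S M T)
include h

omit [Finite G] in
theorem isP : IsPGroup 2 T := h.mx.1.1

theorem j_ne : 𝐉[2] T ≠ ⊥ := thompsonSubgroupOf_ne_bot_of_isPGroup h.isP h.mx.1.2.1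

theorem nj_le : 𝒩(𝐉[2] T) ≤ M := by
  by_contra hn
  have hTM := h.mx.1.2.2.1
  have key : ∀ P : Subgroup G, IsPGroup 2 P → T ≤ P → P ≤ M → P ≤ 𝒩(𝐉[2] T) → P ≤ T := fun P h1 h2 h3 h4 =>
    (eq_of_le_of_card_ge h2 (mx_le h.mx ⟨h1, fun e => h.mx.1.2.1 (le_bot_iff.1 (e ▸ h2)), h3, _,
      loc_norm (j_isP h.isP) h.j_ne, h4, hn⟩ ((thompsonSubgroupOf_le T).trans h2)).2).ge
  obtain ⟨S₁, h1, h2⟩ := CL.Grp.exists_isSylowIn_ge h.isP hTM
  have h3 : T = S₁ := eq_of_norm_le h1.isPGroup h2 (key _ (h1.isPGroup.to_le inf_le_left) (le_inf h2 le_normalizer)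
    (inf_le_left.trans h1.le) (inf_le_right.trans (le_norm_thom le_rfl)))
  obtain ⟨m, hm, e⟩ := syl_conj (h.syl.of_le ((le_normalizer_thompsonSubgroupOf S).trans h.nj) le_top) h1
  rw [h3, ← e, ← cj_thom, ← cj_norm] at hn
  exact hn (cj_le_of_mem h.nj hm)

/-- 12.2.1 -/
theorem ovr (hL : IsTwoLocal L) (hLM : ¬ L ≤ M) {T₀ : Subgroup G} (h0 : IsSylowIn 2 T₀ L) (hJ : 𝐉[2] T ≤ T₀) :
    𝐉[2] T₀ = 𝐉[2] T ∧ T₀ ∈ straddlingTwoSubgroups M ∧ ¬ 𝐉[2] T₀ ≤ pCoreOf 2 L := by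
  have hJ' : 𝐉[2] T ≤ T₀ ⊓ M := le_inf hJ (le_normalizer.trans h.nj_le)
  have h1 : T₀ ⊓ M ∈ straddlingTwoSubgroups M := ⟨h0.isPGroup.to_le inf_le_left,
    fun e => h.j_ne (le_bot_iff.1 (e ▸ hJ')), inf_le_right, L, hL, inf_le_left.trans h0.le, hLM⟩
  have h2 := (mx_le h.mx h1 hJ').1
  have h3 : T₀ ⊓ M = T₀ := eq_of_norm_le h0.isPGroup inf_le_left (inf_le_inf_left _ (by
    refine le_trans ?_ h.nj_le
    rw [← h2]; exact le_norm_thom le_rfl))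
  rw [h3] at h1 h2
  refine ⟨h2, h1, fun e => hLM (le_trans ?_ h.nj_le)⟩
  rw [← h2, ← thompsonSubgroupOf_eq_of_le e (core_le_syl h0)]
  exact le_norm_thom (self_le_norm_core L)

theorem syl_of (hL : IsTwoLocal L) (hLM : ¬ L ≤ M) (hT : T ≤ L) : IsSylowIn 2 T L := by
  obtain ⟨T₀, h1, h2⟩ := CL.Grp.exists_isSylowIn_ge h.isP hT
  have hJ := (thompsonSubgroupOf_le (p := 2) T).trans h2
  rwa [eq_of_le_of_card_ge h2 (mx_le h.mx (h.ovr hL hLM h1 hJ).2.1 hJ).2]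

theorem exists_comp (hL : IsTwoLocal L) (hLM : ¬ L ≤ M) (hT : T ≤ L) : ∃ K, IsJComponent T K ∧ K ≤ L ∧ ¬ K ≤ M := by
  by_contra hn
  push Not at hn
  exact hLM ((h.z.lh_loc hL (h.syl_of hL hLM hT)).le_of_comp hn (inf_le_right.trans h.nj_le))

theorem zero (hK : IsJComponent T K) (hKM : ¬ K ≤ M) : K ∈ jComponentsZero T :=
  ⟨hK, fun _ h1 h2 => (h.ovr (loc_norm (elem_isP (w_elem K)) (JC.w_ne hK))
    (fun e => hKM ((le_normalizer.trans (norm_le_norm_w K)).trans e)) (sylTwo_iff.1 h2) h1).1⟩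

/-- 12.2.2 -/
theorem exists_out : (jComponentsOutside M T).Nonempty := by
  obtain ⟨L, hL, hT, hLM⟩ := h.mx.1.2.2.2
  obtain ⟨K, h1, h2, h3⟩ := h.exists_comp hL hLM hT
  exact ⟨K, h.zero h1 h3, h3, fun e => loc_core_ne hL (le_bot_iff.1 (e ▸ core_le_core_of_le
    ((core_le_syl (h.syl_of hL hLM hT)).trans le_sup_right) (sup_le h2 hT)))⟩

/-- 12.2.3 -/
theorem exists_uq (hK : K ∈ jComponentsOutside M T) : ∃ L, Uq T K L := by
  obtain ⟨⟨jc, -⟩, hKM, h0⟩ := hK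
  have lh : ∀ U, IsTwoLocal U → K ≤ U → 𝐉[2] T ≤ U → ∃ T₀, LH T₀ U ∧ 𝐉[2] T₀ = 𝐉[2] T := fun U h1 h2 h3 => by
    obtain ⟨T₀, k1, k2⟩ := CL.Grp.exists_isSylowIn_ge (j_isP h.isP) h3
    exact ⟨T₀, h.z.lh_loc h1 k1, (h.ovr h1 (fun e => hKM (h2.trans e)) k1 k2).1⟩
  have nrm : ∀ U, IsTwoLocal U → K ≤ U → 𝐉[2] T ≤ U → ∀ K₁ K₂, IsJComponent T K₁ → K₁ ≤ U →
      IsJComponent T K₂ → K₂ ≤ U → K₁ ≤ 𝒩(K₂) := fun U h1 h2 h3 K₁ K₂ k1 k2 k3 k4 => by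
    obtain ⟨T₀, l, e⟩ := lh U h1 h2 h3
    exact (l.le_oO (JC.congr k1 e) k2).trans (l.oO_le_norm (JC.congr k3 e) k4)
  have hKW : K ≤ 𝒩(wOf K) := le_normalizer.trans (norm_le_norm_w K)
  have hJW : 𝐉[2] T ≤ 𝒩(wOf K) := (JC.jn jc).trans (norm_le_norm_w K)
  have hW := loc_norm (elem_isP (w_elem K)) (JC.w_ne jc)
  have key : ∀ U, IsMaximalTwoLocal U → K ≤ U → 𝐉[2] T ≤ U →
      U = 𝒩(pCoreOf 2 (sSup {K' | IsJComponent T K' ∧ K' ≤ 𝒩(wOf K)})) := fun U h1 h2 h3 => by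
    set E := sSup {K' | IsJComponent T K' ∧ K' ≤ U} with hE
    have sub : ∀ K', IsJComponent T K' → K' ≤ U → K' ≤ 𝒩(wOf K) := fun K' k1 k2 =>
      (nrm U h1.1 h2 h3 K' K k1 k2 jc h2).trans (norm_le_norm_w K)
    have k1 : U ≤ 𝒩(E) := by
      obtain ⟨T₀, l, e⟩ := lh U h1.1 h2 h3
      refine le_norm_of_cj_le fun g hg => cj_le_iff.2 (sSup_le fun K' hK' => cj_le_iff.1 (le_sSup ?_))
      exact ⟨JC.congr (l.exists_conj (JC.congr hK'.1 e) hK'.2 hg) e.symm, cj_le_of_mem hK'.2 hg⟩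
    have k2 : 𝒩(pCoreOf 2 E) = U := max_eq h1 (core_isP E) (fun e => JC.w_ne jc (le_bot_iff.1 (e ▸ le_core
      ((w_le K).trans (le_sSup (by exact ⟨jc, h2⟩))) (elem_isP (w_elem K))
      (sSup_le fun K' hK' => sub K' hK'.1 hK'.2)))) (le_norm_core k1)
    rw [← k2, hE]
    congr 4
    ext K'
    refine and_congr_right fun k3 => ⟨sub K' k3, fun k4 => (le_norm_core ?_).trans k2.le⟩
    rw [hE, sSup_eq_iSup']
    exact le_norm_iSup fun K'' => nrm _ hW hKW hJW K' K'' k3 k4 K''.2.1 (sub _ K''.2.1 K''.2.2)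
  obtain ⟨L, h1, h2⟩ := exists_max hW
  have uq : ∀ U, IsTwoLocal U → K ≤ U → 𝐉[2] T ≤ U → U ≤ L := fun U k1 k2 k3 => by
    obtain ⟨U', k4, k5⟩ := exists_max k1
    rwa [key L h1 (hKW.trans h2) (hJW.trans h2), ← key U' k4 (k2.trans k5) (k3.trans k5)]
  have h3 := self_le_norm_core (p := 2) (K ⊔ T)
  exact ⟨L, jc, h1, hKW.trans h2, h.syl_of h1.1 (fun e => hKM ((hKW.trans h2).trans e))
    ((le_sup_right.trans h3).trans (uq _ (loc_norm (core_isP _) h0) (le_sup_left.trans h3)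
      ((thompsonSubgroupOf_le T).trans (le_sup_right.trans h3)))), uq⟩

end HM

end CL.KS12
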